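import Cfsg.Agent.LargeFischer85.Defs

/-!
Maps of the frame model given by twelve column vectors, and the group of semilinear maps
preserving the singular vectors and the first orbit.
-/

set_option autoImplicit false

namespace CfsgLib.LargeFischer28

open CfsgLib.LargeFischer85

abbrev W : Type := Fin 4096

/-- Column `j` of a packed map. -/
def col (c j : ℕ) : ℕ := (c >>> (12 * j)) % 4096

/-- Sum of the columns selected by the lowest `k` bits. -/
def appN (c : ℕ) : ℕ → ℕ → ℕ
  | 0, _ => 0
  | k + 1, n => appN c k n ^^^ (if n.testBit k then col c k else 0)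

theorem col_lt (c j : ℕ) : col c j < 4096 := Nat.mod_lt _ (by norm_num)

theorem appN_lt (c : ℕ) : ∀ k n, appN c k n < 4096
  | 0, _ => by simp [appN]
  | k + 1, n => by
    simp only [appN]
    refine Nat.xor_lt_two_pow (n := 12) (appN_lt c k n) ?_
    split
    · exact col_lt c k
    · norm_num

theorem appN_xor (c : ℕ) : ∀ k a b, appN c k (a ^^^ b) = appN c k a ^^^ appN c k b
  | 0, _, _ => by simp [appN]
  | k + 1, a, b => by
    simp only [appN, appN_xor c k a b, Nat.testBit_xor]
    rcases ha : a.testBit k <;> rcases hb : b.testBit k <;> simp [Nat.xor_assoc, Nat.xor_left_comm, Nat.xor_comm]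

/-- The map with the packed columns `c`. -/
def app (c : ℕ) (n : W) : W := ⟨appN c 12 n.val, appN_lt c 12 n.val⟩

/-- An additive map. -/
def IsAdd (f : W → W) : Prop := ∀ a b, f (vadd a b) = vadd (f a) (f b)

theorem vadd_val (a b : W) : (vadd a b).val = a.val ^^^ b.val := by
  simp only [vadd]
  exact Nat.mod_eq_of_lt (Nat.xor_lt_two_pow (n := 12) a.isLt b.isLt)

theorem isAdd_app (c : ℕ) : IsAdd (app c) := fun a b => by
  ext
  simp only [app, vadd_val, appN_xor]

theorem isAdd_id : IsAdd id := fun _ _ => rfl

theorem isAdd_comp {f g : W → W} (hf : IsAdd f) (hg : IsAdd g) : IsAdd (f ∘ g) := fun a b => by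
  simp [hg a b, hf _ _]

/-- The `j`-th basis vector. -/
def bas (j : Fin 12) : W := ⟨2 ^ j.val, by
  calc 2 ^ j.val < 2 ^ 12 := Nat.pow_lt_pow_right (by norm_num) j.isLt
    _ = 4096 := by norm_num⟩

theorem IsAdd.map_zero {f : W → W} (hf : IsAdd f) : f 0 = 0 := by
  have h0 : vadd (0 : W) 0 = 0 := rfl
  have h := hf 0 0
  rw [h0] at h
  have hv := congrArg Fin.val h
  rw [vadd_val, Nat.xor_self] at hv
  exact Fin.ext hv

theorem isAdd_ext {f g : W → W} (hf : IsAdd f) (hg : IsAdd g) (h : ∀ j, f (bas j) = g (bas j)) :
    f = g := by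
  suffices H : ∀ k, k ≤ 12 → ∀ n : W, n.val < 2 ^ k → f n = g n by
    exact funext fun n => H 12 le_rfl n (lt_of_lt_of_eq n.isLt (by norm_num))
  intro k
  induction k with
  | zero =>
    intro _ n hn
    have : n = 0 := Fin.ext (by simpa using hn)
    rw [this, hf.map_zero, hg.map_zero]
  | succ k ih =>
    intro hk n hn
    by_cases hb : n.val.testBit k
    · have hlt : n.val ^^^ 2 ^ k < 2 ^ k := by
        refine Nat.lt_pow_two_of_testBit _ fun i hi => ?_
        rw [Nat.testBit_xor, Nat.testBit_two_pow]
        rcases Nat.lt_or_ge k i with h' | h'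
        · have h2 : k ≠ i := by omega
          simp [h2, Nat.testBit_lt_two_pow (lt_of_lt_of_le hn (Nat.pow_le_pow_right (by norm_num) h'))]
        · obtain rfl : i = k := by omega
          simp [hb]
      set m : W := ⟨n.val ^^^ 2 ^ k, lt_of_lt_of_le hlt (by
        calc 2 ^ k ≤ 2 ^ 12 := Nat.pow_le_pow_right (by norm_num) (by omega)
          _ = 4096 := by norm_num)⟩ with hm
      have hn' : n = vadd m (bas ⟨k, by omega⟩) := by
        ext
        simp [vadd_val, hm, bas, Nat.xor_assoc]
      rw [hn', hf, hg, ih (by omega) m hlt, h]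
    · refine ih (by omega) n (Nat.lt_pow_two_of_testBit _ fun i hi => ?_)
      rcases Nat.lt_or_ge k i with h' | h'
      · exact Nat.testBit_lt_two_pow (lt_of_lt_of_le hn (Nat.pow_le_pow_right (by norm_num) h'))
      · obtain rfl : i = k := by omega
        simpa using hb

theorem isAdd_congr_bas {f g : W → W} (hf : IsAdd f) (hg : IsAdd g) (j : Fin 12)
    (h : f (bas j) ≠ g (bas j)) : f ≠ g := fun e => h (congrFun e _)

/-- A linear or antilinear map. -/
def IsSemi (g : Equiv.Perm W) : Prop :=
  (∀ n, g (om n) = om (g n)) ∨ ∀ n, g (om n) = om (om (g n))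

/-- The membership condition of the group of the model. -/
structure IsGood (g : Equiv.Perm W) : Prop where
  add : IsAdd g
  sing_iff : ∀ n, sing (g n) ↔ sing n
  one_iff : ∀ n, inOne 0 (g n) ↔ inOne 0 n
  semi : IsSemi g

/-- A test on the `2 ^ k` numbers from `b` on, by halving. -/
def chk (P : ℕ → Bool) : ℕ → ℕ → Bool
  | 0, b => P b
  | k + 1, b => chk P k b && chk P k (b + 2 ^ k)

theorem chk_spec (P : ℕ → Bool) : ∀ k b, chk P k b = true → ∀ n, b ≤ n → n < b + 2 ^ k → P n = true
  | 0, b, h, n, h1, h2 => by
    obtain rfl : n = b := by simp at h2; omega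
    exact h
  | k + 1, b, h, n, h1, h2 => by
    simp only [chk, Bool.and_eq_true] at h
    rcases Nat.lt_or_ge n (b + 2 ^ k) with h' | h'
    · exact chk_spec P k b h.1 n h1 h'
    · exact chk_spec P k _ h.2 n h' (by rw [pow_succ] at h2; omega)

/-- The extension of a test on vectors to numbers. -/
def liftP (P : W → Bool) (n : ℕ) : Bool := if h : n < 4096 then P ⟨n, h⟩ else true

theorem forall_of_chk (P : W → Bool) (h : chk (liftP P) 12 0 = true) (n : W) : P n = true := by
  have := chk_spec _ 12 0 h n.val (Nat.zero_le _) (by simpa using n.isLt)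
  simpa [liftP, n.isLt] using this

theorem om_cube (n : W) : om (om (om n)) = n := by
  have := forall_of_chk (fun n => decide (om (om (om n)) = n)) (by decide +kernel) n
  simpa using this

theorem om_add : IsAdd om := by
  have h : (om : W → W) = app (List.foldr (fun j acc => acc * 4096 + (om (bas j)).val) 0 (List.finRange 12)) := by
    funext n
    have := forall_of_chk (fun n => decide (om n =
      app (List.foldr (fun j acc => acc * 4096 + (om (bas j)).val) 0 (List.finRange 12)) n))
      (by decide +kernel) n
    simpa using this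
  rw [h]
  exact isAdd_app _

end CfsgLib.LargeFischer28
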