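import Cfsg.Agent.LargeFischer28.Split

/-!
The order of the group of good maps, given a subgroup of order 19595520 with an antilinear element.
-/

set_option autoImplicit false
set_option maxRecDepth 100000

namespace CfsgLib.LargeFischer28

open CfsgLib.LargeFischer85

theorem orth_iff {g : Equiv.Perm W} (hg : IsGood g) (a b : W) : orth (g a) (g b) ↔ orth a b := by
  have h1 := hg.sing_iff (vadd a b)
  have h2 := hg.sing_iff a
  have h3 := hg.sing_iff b
  rw [hg.add] at h1
  simp only [sing] at h1 h2 h3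
  simp only [orth]
  omega

/-- The frame vector `i`. -/
def fv (i : ℕ) : W := ⟨4 ^ i % 4096, Nat.mod_lt _ (by norm_num)⟩

/-- The conditions on the image of frame vector `k` when the earlier ones are fixed. -/
def candB (k : ℕ) (v : W) : Bool :=
  decide (¬ sing v) && ((List.range k).all fun i =>
    decide (orth (fv i) v) && decide (orth (om (fv i)) v) &&
      decide (inOne 0 (vadd (fv i) v)) && decide (inOne 0 (vadd (fv i) (om v))) &&
      decide (inOne 0 (vadd (fv i) (om (om v))))) &&
    (k != 5 || decide (inOne 0 (vadd (vadd (vadd (vadd (vadd (fv 0) (fv 1)) (fv 2)) (fv 3)) (fv 4)) v)))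

/-- The number of candidates. -/
def cntC (k : ℕ) : ℕ := [2016, 15, 12, 9, 6, 1].getD k 1

/-- Count by halving. -/
def cntB (P : ℕ → Bool) : ℕ → ℕ → ℕ
  | 0, b => if P b then 1 else 0
  | k + 1, b => cntB P k b + cntB P k (b + 2 ^ k)

theorem cntB_spec (P : ℕ → Bool) : ∀ k b,
    ((Finset.Ico b (b + 2 ^ k)).filter fun n => P n = true).card = cntB P k b
  | 0, b => by
    rw [pow_zero, Nat.Ico_succ_singleton, Finset.filter_singleton]
    simp only [cntB]
    split <;> simp
  | k + 1, b => by
    rw [cntB, ← cntB_spec P k b, ← cntB_spec P k (b + 2 ^ k), ← Finset.card_union_of_disjoint,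
      ← Finset.filter_union, Finset.Ico_union_Ico_eq_Ico (Nat.le_add_right _ _) (Nat.le_add_right _ _), pow_succ,
      show b + 2 ^ k + 2 ^ k = b + 2 ^ k * 2 by ring]
    exact Finset.disjoint_filter_filter (Finset.Ico_disjoint_Ico_consecutive _ _ _)

theorem c_cand : ((List.range 6).all fun k => cntB (liftP (candB k) · && true) 12 0 == cntC k) = true := by
  decide +kernel

theorem card_cand {k : ℕ} (hk : k < 6) :
    Nat.card {v : W // candB k v = true} ≤ cntC k := by
  have h := c_cand
  simp only [List.all_eq_true, List.mem_range, beq_iff_eq] at h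
  rw [← h k hk, ← cntB_spec, Nat.card_eq_fintype_card, Fintype.card_subtype]
  refine Finset.card_le_card_of_injOn (fun v => v.val) (fun v hv => ?_) Fin.val_injective.injOn
  simp only [Finset.coe_filter, Finset.mem_univ, true_and, Set.mem_setOf_eq] at hv
  simp [liftP, v.isLt, hv]

/-- The linear good maps fixing the first `k` frame vectors. -/
def St (k : ℕ) : Subgroup (Equiv.Perm W) where
  carrier := {g | g ∈ GL6 ∧ ∀ i < k, g (fv i) = fv i}
  one_mem' := ⟨GL6.one_mem, fun _ _ => rfl⟩
  mul_mem' h h' := ⟨GL6.mul_mem h.1 h'.1, fun i hi => by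
    rw [Equiv.Perm.mul_apply, h'.2 i hi, h.2 i hi]⟩
  inv_mem' {g} h := ⟨GL6.inv_mem h.1, fun i hi => g.injective (by simp [h.2 i hi])⟩

theorem c_frame : ((List.range 6).all fun i => decide (¬ sing (fv i)) &&
    ((List.range i).all fun j => decide (orth (fv j) (fv i)) && decide (orth (om (fv j)) (fv i)) &&
      decide (inOne 0 (vadd (fv j) (fv i))) && decide (inOne 0 (vadd (fv j) (om (fv i)))) &&
      decide (inOne 0 (vadd (fv j) (om (om (fv i))))))) &&
    decide (inOne 0 (vadd (vadd (vadd (vadd (vadd (fv 0) (fv 1)) (fv 2)) (fv 3)) (fv 4)) (fv 5))) =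
      true := by
  decide +kernel

theorem image_cand {k : ℕ} (hk : k < 6) {g : Equiv.Perm W} (hg : g ∈ St k) :
    candB k (g (fv k)) = true := by
  have h := c_frame
  simp only [List.all_eq_true, List.mem_range, Bool.and_eq_true, decide_eq_true_eq] at h
  obtain ⟨hall, hlast⟩ := h
  obtain ⟨hns, hp⟩ := hall k hk
  obtain ⟨⟨hgood, hlin⟩, hfix⟩ := hg
  simp only [candB, Bool.and_eq_true, Bool.or_eq_true, decide_eq_true_eq, List.all_eq_true,
    List.mem_range, bne_iff_ne, hgood.sing_iff]
  refine ⟨⟨hns, fun i hi => ?_⟩, ?_⟩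
  · obtain ⟨⟨⟨⟨a, b⟩, c⟩, d⟩, e⟩ := hp i hi
    refine ⟨⟨⟨⟨?_, ?_⟩, ?_⟩, ?_⟩, ?_⟩
    · rwa [← hfix i hi, orth_iff hgood]
    · rwa [← hfix i hi, ← hlin, orth_iff hgood]
    · rwa [← hfix i hi, ← hgood.add, hgood.one_iff]
    · rwa [← hfix i hi, ← hlin, ← hgood.add, hgood.one_iff]
    · rwa [← hfix i hi, ← hlin, ← hlin, ← hgood.add, hgood.one_iff]
  · by_cases h5 : k = 5
    · subst h5
      refine Or.inr ?_
      rw [← hfix 0 (by omega), ← hfix 1 (by omega), ← hfix 2 (by omega), ← hfix 3 (by omega),
        ← hfix 4 (by omega), ← hgood.add, ← hgood.add, ← hgood.add, ← hgood.add, ← hgood.add,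
        hgood.one_iff]
      exact hlast
    · exact Or.inl h5

theorem card_St_step {k : ℕ} (hk : k < 6) :
    Nat.card (St k) ≤ cntC k * Nat.card (St (k + 1)) := by
  classical
  let F : ↥(St k) → {v : W // candB k v = true} := fun g => ⟨g.1 (fv k), image_cand hk g.2⟩
  let sec : {v : W // candB k v = true} → ↥(St k) :=
    fun v => if h : ∃ g, F g = v then h.choose else 1
  have hsec : ∀ g, (sec (F g)).1 (fv k) = g.1 (fv k) := fun g => by
    have h : ∃ g', F g' = F g := ⟨g, rfl⟩
    simp only [sec, dif_pos h]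
    exact congrArg Subtype.val h.choose_spec
  let Gf : ↥(St k) → {v : W // candB k v = true} × ↥(St (k + 1)) := fun g =>
    (F g, ⟨((sec (F g))⁻¹ * g : ↥(St k)).1, ((sec (F g))⁻¹ * g).2.1, fun i hi => by
      rcases Nat.lt_succ_iff_lt_or_eq.1 hi with h | rfl
      · exact ((sec (F g))⁻¹ * g).2.2 i h
      · apply (sec (F g)).1.injective
        simp [hsec g]⟩)
  have hG : Function.Injective Gf := fun a b e => by
    simp only [Gf, Prod.mk.injEq, Subtype.mk.injEq] at e
    obtain ⟨e1, e2⟩ := e
    have e3 : (sec (F a))⁻¹ * a = (sec (F b))⁻¹ * b := Subtype.ext (congrArg (fun x : ↥(St (k + 1)) => (x : Equiv.Perm W)) e2)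
    rw [show sec (F a) = sec (F b) from congrArg sec e1] at e3
    exact mul_left_cancel e3
  refine (Nat.card_le_card_of_injective Gf hG).trans ?_
  rw [Nat.card_prod]
  exact Nat.mul_le_mul_right _ (card_cand hk)

theorem c_basfv : ((List.finRange 12).all fun j =>
    bas j == if j.val % 2 = 0 then fv (j.val / 2) else om (fv (j.val / 2))) = true := by
  decide +kernel

theorem St_six : St 6 = ⊥ := by
  rw [Subgroup.eq_bot_iff_forall]
  rintro g ⟨⟨hgood, hlin⟩, hfix⟩
  have h := c_basfv
  simp only [List.all_eq_true, List.mem_finRange, forall_const, beq_iff_eq] at h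
  refine Equiv.ext fun n => congrFun (isAdd_ext hgood.add isAdd_id fun j => ?_) n
  have hj : j.val / 2 < 6 := by omega
  rw [h j]
  split
  · exact hfix _ hj
  · show g (om _) = _
    rw [hlin, hfix _ hj]
    rfl

theorem card_GL6_le : Nat.card GL6 ≤ 19595520 := by
  have h0 : Nat.card GL6 = Nat.card (St 0) := by
    congr 2
    ext g
    exact ⟨fun h => ⟨h, fun i hi => absurd hi (Nat.not_lt_zero i)⟩, fun h => h.1⟩
  have h6 : Nat.card (St 6) = 1 := by rw [St_six, Subgroup.card_bot]
  have a := card_St_step (k := 0) (by norm_num)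
  have b := card_St_step (k := 1) (by norm_num)
  have c := card_St_step (k := 2) (by norm_num)
  have d := card_St_step (k := 3) (by norm_num)
  have e := card_St_step (k := 4) (by norm_num)
  have f := card_St_step (k := 5) (by norm_num)
  simp [cntC] at a b c d e f
  omega

/-- Twice the linear part. -/
theorem card_eq_two_mul {R : Subgroup (Equiv.Perm W)} (hR : R ≤ GX) {u : Equiv.Perm W}
    (huR : u ∈ R) (huL : u ∉ GL6) : Nat.card R = 2 * Nat.card ↥(R ⊓ GL6) := by
  classical
  let e : ↥R ≃ ↥(R ⊓ GL6) ⊕ ↥(R ⊓ GL6) :=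
    { toFun := fun g => if hg : (g : Equiv.Perm W) ∈ GL6 then Sum.inl ⟨g, g.2, hg⟩
        else Sum.inr ⟨g * u, R.mul_mem g.2 huR, mul_mem_GL6 (hR g.2) (hR huR) hg huL⟩
      invFun := fun x => Sum.elim (fun g : ↥(R ⊓ GL6) => (⟨g, g.2.1⟩ : ↥R))
        (fun g : ↥(R ⊓ GL6) => (⟨g * u⁻¹, R.mul_mem g.2.1 (R.inv_mem huR)⟩ : ↥R)) x
      left_inv := fun g => by
        by_cases hg : (g : Equiv.Perm W) ∈ GL6 <;> simp [hg]
      right_inv := fun x => by
        rcases x with g | g
        · have hg : (g : Equiv.Perm W) ∈ GL6 := g.2.2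
          simp [hg]
        · have hn : (g : Equiv.Perm W) * u⁻¹ ∉ GL6 := fun h =>
            huL (GL6.inv_mem_iff.1 ((GL6.mul_mem_cancel_left g.2.2).1 h))
          simp [hn] }
  rw [Nat.card_congr e, Nat.card_sum, two_mul]

theorem c_anti : linN.testBit (4 : Fin 512).val = false := by
  decide +kernel

theorem c_out : linN.testBit outF.val = true ∧ flagN.testBit outF.val = false := by
  decide +kernel

/-- What follows from a subgroup with the order of `H/Q` having an antilinear element. -/
theorem group_facts {R : Subgroup (Equiv.Perm W)} (hR : R ≤ GX) (hcard : Nat.card R = 19595520)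
    {u : Equiv.Perm W} (huR : u ∈ R) (huL : u ∉ GL6) :
    (∀ g ∈ GL6, g * g ∈ R) ∧ (∀ i : Fin 512, elP i ∈ R → linN.testBit i.val = true →
      flagN.testBit i.val = true) ∧ Nat.card GX = 39191040 := by
  classical
  set M := R ⊓ GL6 with hM
  have hMc : Nat.card M = 9797760 := by
    have := card_eq_two_mul hR huR huL
    rw [← hM] at this
    omega
  have hle := card_GL6_le
  have hMle : M ≤ GL6 := inf_le_right
  have hmul : (M.subgroupOf GL6).index * 9797760 = Nat.card GL6 := by
    rw [← hMc, ← Nat.card_congr (Subgroup.subgroupOfEquivOfLe hMle).toEquiv]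
    exact (M.subgroupOf GL6).index_mul_card
  have hidx : (M.subgroupOf GL6).index ≠ 0 := Subgroup.index_ne_zero_of_finite
  have h12 : (M.subgroupOf GL6).index = 1 ∨ (M.subgroupOf GL6).index = 2 := by omega
  have hsq : ∀ g ∈ GL6, g * g ∈ M := fun g hg => by
    rcases h12 with h | h
    · rw [Subgroup.index_eq_one, Subgroup.subgroupOf_eq_top] at h
      exact M.mul_mem (h hg) (h hg)
    · exact Subgroup.mem_subgroupOf.1 (Subgroup.mul_self_mem_of_index_two h ⟨g, hg⟩)
  have hflag : ∀ i : Fin 512, elP i ∈ M → linN.testBit i.val = true →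
      flagN.testBit i.val = true := by
    intro i hi hl
    by_contra hf
    simp only [Bool.not_eq_true] at hf
    have hout : elP outF ∈ M := by
      have h2 := flag_mem hsq _ (nonflag_mem i hl hf)
      rw [elP_mul] at h2
      exact (M.mul_mem_cancel_left hi).1 h2
    have hall : PS ⊓ GL6 ≤ M := by
      rintro _ ⟨⟨j, rfl⟩, hj⟩
      have hjl := (lin_iff j).2 hj
      by_cases hfj : flagN.testBit j.val = true
      · exact flag_mem hsq j hfj
      · simp only [Bool.not_eq_true] at hfj
        have h2 := flag_mem hsq _ (nonflag_mem j hjl hfj)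
        rw [elP_mul] at h2
        exact (M.mul_mem_cancel_right hout).1 h2
    obtain ⟨i1, hi1⟩ : ∃ i : Fin 512, linN.testBit i.val = false := ⟨_, c_anti⟩
    have h256 : Nat.card ↥(PS ⊓ GL6) = 256 := by
      have := card_eq_two_mul PS_le (u := elP i1) ⟨i1, rfl⟩
        (fun h => by simp [(lin_iff i1).2 h] at hi1)
      rw [card_PS] at this
      omega
    have := Subgroup.card_dvd_of_le hall
    rw [h256, hMc] at this
    norm_num at this
  refine ⟨fun g hg => (hsq g hg).1, fun i hi hl => hflag i ⟨hi, (lin_iff i).1 hl⟩ hl, ?_⟩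
  have hne : (M.subgroupOf GL6).index ≠ 1 := by
    intro h
    rw [Subgroup.index_eq_one, Subgroup.subgroupOf_eq_top] at h
    have := hflag outF (h ((lin_iff outF).1 c_out.1)) c_out.1
    rw [c_out.2] at this
    exact Bool.noConfusion this
  have := card_eq_two_mul (le_refl GX) (hR huR) huL
  rw [inf_eq_right.2 GL6_le] at this
  omega

end CfsgLib.LargeFischer28
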