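import Cfsg.Agent.LargeFischer28.Good
import Cfsg.Agent.LargeFischer28.Data

/-!
The Sylow 2-subgroup of the group of good maps as a list of 512 packed maps with a product table.
-/

set_option autoImplicit false
set_option maxRecDepth 100000

namespace CfsgLib.LargeFischer28

open CfsgLib.LargeFischer85

/-- Entry `i` of a packed table with entries of `w` bits. -/
def getP (N w i : ℕ) : ℕ := (N >>> (w * i)) % 2 ^ w

theorem getP_lt (N w i : ℕ) : getP N w i < 2 ^ w := Nat.mod_lt _ (by positivity)

/-- The packed columns of element `i`. -/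
def elsC (i : ℕ) : ℕ := getP (elsRows.getD (i / 16) 0) 144 (i % 16)

/-- The product of generator `k` with element `i`. -/
def nxt (k i : ℕ) : ℕ := getP (nextRows.getD k 0) 12 i

/-- The parent of an element. -/
def par (i : ℕ) : ℕ := getP parN 12 i

/-- The last generator of an element. -/
def pk (i : ℕ) : ℕ := getP pkN 4 i

/-- The product along the tree. -/
def mulI : ℕ → ℕ → ℕ → ℕ
  | 0, _, j => j
  | f + 1, i, j => if i = 0 then j else nxt (pk i) (mulI f (par i) j)

/-- The tree reaches zero. -/
def chain : ℕ → ℕ → Bool
  | 0, i => i == 0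
  | f + 1, i => i == 0 || chain f (par i)

/-- The product of two elements. -/
def mulN (i j : ℕ) : ℕ := mulI 6 i j

/-- The inverse of an element. -/
def invE (i : ℕ) : ℕ := getP invN 12 i

/-- The map of element `i`. -/
def el (i : ℕ) : W → W := app (elsC i)

/-- The test of one row of the product table. -/
def nextRowB (k : ℕ) : Bool := (List.range 512).all fun i =>
  decide (nxt k i < 512) && ((List.range 12).all fun j =>
    appN (elsC (k + 1)) 12 (col (elsC i) j) == col (elsC (nxt k i)) j)

theorem c_next0 : nextRowB 0 = true := by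
  decide +kernel

theorem c_next1 : nextRowB 1 = true := by
  decide +kernel

theorem c_next2 : nextRowB 2 = true := by
  decide +kernel

theorem c_next3 : nextRowB 3 = true := by
  decide +kernel

theorem c_next4 : nextRowB 4 = true := by
  decide +kernel

theorem c_next5 : nextRowB 5 = true := by
  decide +kernel

theorem c_next6 : nextRowB 6 = true := by
  decide +kernel

theorem c_next7 : nextRowB 7 = true := by
  decide +kernel

theorem c_next8 : nextRowB 8 = true := by
  decide +kernel

theorem c_next {k : ℕ} (hk : k < 9) : nextRowB k = true := by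
  interval_cases k
  exacts [c_next0, c_next1, c_next2, c_next3, c_next4, c_next5, c_next6, c_next7, c_next8]

theorem c_tree : ((List.range 512).all fun i => chain 6 i && decide (par i < 512) &&
    decide (pk i < 9) && (i == 0 || nxt (pk i) (par i) == i) && decide (invE i < 512) &&
    mulN i (invE i) == 0 && mulN (invE i) i == 0) = true := by
  decide +kernel

theorem c_zero : ((List.range 12).all fun j => col (elsC 0) j == 2 ^ j) = true := by
  decide +kernel

/-- The columns of a packed map, packed again. -/
def repack (c : ℕ) : ℕ := (List.range 12).foldr (fun t acc => acc * 4096 + col c t) 0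

theorem c_nodup : ((List.range 512).all fun i =>
    repack (elsC i) == elsC i && getP ordN 12 (getP rankN 12 i) == i &&
      decide (getP rankN 12 i < 512) &&
      (i == 511 || decide (elsC (getP ordN 12 i) < elsC (getP ordN 12 (i + 1))))) = true := by
  decide +kernel

theorem el_zero : el 0 = id := isAdd_ext (isAdd_app _) isAdd_id fun j => Fin.ext <| by
  have := c_zero
  simp only [List.all_eq_true, List.mem_range, beq_iff_eq] at this
  rw [el, app_bas, this j.val j.isLt]
  rfl

theorem nxt_lt {k i : ℕ} (hk : k < 9) (hi : i < 512) : nxt k i < 512 := by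
  have := c_next hk
  simp only [nextRowB, List.all_eq_true, List.mem_range, Bool.and_eq_true, decide_eq_true_eq] at this
  exact (this i hi).1

theorem el_nxt {k i : ℕ} (hk : k < 9) (hi : i < 512) : el (nxt k i) = el (k + 1) ∘ el i :=
  isAdd_ext (isAdd_app _) (isAdd_comp (isAdd_app _) (isAdd_app _)) fun j => Fin.ext <| by
    have := c_next hk
    simp only [nextRowB, List.all_eq_true, List.mem_range, Bool.and_eq_true, beq_iff_eq] at this
    rw [el, app_bas, ← (this i hi).2 j.val j.isLt, ← app_bas]
    rfl

theorem tree_spec {i : ℕ} (hi : i < 512) : chain 6 i = true ∧ par i < 512 ∧ pk i < 9 ∧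
    (i = 0 ∨ nxt (pk i) (par i) = i) ∧ invE i < 512 ∧ mulN i (invE i) = 0 ∧
    mulN (invE i) i = 0 := by
  have := c_tree
  simp only [List.all_eq_true, List.mem_range, Bool.and_eq_true, Bool.or_eq_true, beq_iff_eq,
    decide_eq_true_eq] at this
  obtain ⟨⟨⟨⟨⟨⟨a, b⟩, c⟩, d⟩, e⟩, f⟩, g⟩ := this i hi
  exact ⟨a, b, c, d, e, f, g⟩

theorem el_tree {i : ℕ} (hi : i < 512) (h0 : i ≠ 0) : el i = el (pk i + 1) ∘ el (par i) := by
  obtain ⟨-, hp, hk, h, -⟩ := tree_spec hi
  rw [← el_nxt hk hp, h.resolve_left h0]

theorem mulI_spec : ∀ f i j, i < 512 → j < 512 → chain f i = true →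
    mulI f i j < 512 ∧ el (mulI f i j) = el i ∘ el j
  | 0, i, j, _, hj, h => by
    simp only [chain, beq_iff_eq] at h
    subst h
    exact ⟨hj, by simp [mulI, el_zero]⟩
  | f + 1, i, j, hi, hj, h => by
    by_cases h0 : i = 0
    · subst h0
      exact ⟨by simpa [mulI] using hj, by simp [mulI, el_zero]⟩
    simp only [chain, Bool.or_eq_true, beq_iff_eq, h0, false_or] at h
    obtain ⟨-, hp, hk, -⟩ := tree_spec hi
    obtain ⟨hlt, he⟩ := mulI_spec f _ j hp hj h
    simp only [mulI, h0, if_false]
    exact ⟨nxt_lt hk hlt, by rw [el_nxt hk hlt, he, el_tree hi h0]; rfl⟩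

/-- The product of two elements. -/
def mulF (i j : Fin 512) : Fin 512 :=
  ⟨mulN i.val j.val, (mulI_spec 6 _ _ i.isLt j.isLt (tree_spec i.isLt).1).1⟩

/-- The inverse of an element. -/
def invF (i : Fin 512) : Fin 512 := ⟨invE i.val, (tree_spec i.isLt).2.2.2.2.1⟩

theorem el_mulF (i j : Fin 512) : el (mulF i j).val = el i.val ∘ el j.val :=
  (mulI_spec 6 _ _ i.isLt j.isLt (tree_spec i.isLt).1).2

theorem el_inv_left (i : Fin 512) (n : W) : el (invF i).val (el i.val n) = n := by
  have h : mulF (invF i) i = (0 : Fin 512) := Fin.ext (tree_spec i.isLt).2.2.2.2.2.2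
  have := congrFun (el_mulF (invF i) i) n
  rw [h] at this
  simpa [el_zero] using this.symm

theorem el_inv_right (i : Fin 512) (n : W) : el i.val (el (invF i).val n) = n := by
  have h : mulF i (invF i) = (0 : Fin 512) := Fin.ext (tree_spec i.isLt).2.2.2.2.2.1
  have := congrFun (el_mulF i (invF i)) n
  rw [h] at this
  simpa [el_zero] using this.symm

/-- Element `i` as a permutation. -/
def elP (i : Fin 512) : Equiv.Perm W where
  toFun := el i.val
  invFun := el (invF i).val
  left_inv := el_inv_left i
  right_inv := el_inv_right i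

theorem elP_apply (i : Fin 512) (n : W) : elP i n = app (elsC i.val) n := rfl

theorem elP_mul (i j : Fin 512) : elP (mulF i j) = elP i * elP j :=
  Equiv.ext fun n => congrFun (el_mulF i j) n

theorem elP_zero : elP 0 = 1 := Equiv.ext fun n => congrFun el_zero n

theorem elP_injective : Function.Injective elP := by
  have h := c_nodup
  simp only [List.all_eq_true, List.mem_range, Bool.and_eq_true, Bool.or_eq_true, beq_iff_eq,
    decide_eq_true_eq] at h
  have hmono : ∀ r' r, r < r' → r' < 512 → elsC (getP ordN 12 r) < elsC (getP ordN 12 r') := by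
    intro r'
    induction r' with
    | zero => intro r hr; exact absurd hr (Nat.not_lt_zero r)
    | succ n ih =>
      intro r hr hn
      have hs := (h n (by omega)).2.resolve_left (by omega)
      rcases Nat.lt_succ_iff_lt_or_eq.1 hr with h' | h'
      · exact (ih r h' (by omega)).trans hs
      · exact h' ▸ hs
  intro i j e
  have hc : ∀ t : Fin 12, col (elsC i.val) t.val = col (elsC j.val) t.val := fun t => by
    have h2 := congrArg (fun g : Equiv.Perm W => (g (bas t)).val) e
    simp only [elP_apply, app_bas] at h2
    exact h2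
  have hrep : repack (elsC i.val) = repack (elsC j.val) := by
    have H : ∀ l : List ℕ, (∀ t ∈ l, t < 12) →
        l.foldr (fun t acc => acc * 4096 + col (elsC i.val) t) 0 =
          l.foldr (fun t acc => acc * 4096 + col (elsC j.val) t) 0 := by
      intro l
      induction l with
      | nil => exact fun _ => rfl
      | cons a l ih =>
        intro hl
        simp only [List.foldr_cons]
        rw [ih fun t ht => hl t (List.mem_cons_of_mem _ ht),
          hc ⟨a, hl a (List.mem_cons_self ..)⟩]
    exact H _ fun t ht => List.mem_range.1 ht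
  obtain ⟨⟨⟨hi1, hi2⟩, hi3⟩, -⟩ := h i.val i.isLt
  obtain ⟨⟨⟨hj1, hj2⟩, hj3⟩, -⟩ := h j.val j.isLt
  rw [hi1, hj1] at hrep
  refine Fin.ext ?_
  rcases lt_trichotomy (getP rankN 12 i.val) (getP rankN 12 j.val) with h' | h' | h'
  · have := hmono _ _ h' hj3
    rw [hi2, hj2] at this
    omega
  · rw [← hi2, ← hj2, h']
  · have := hmono _ _ h' hi3
    rw [hi2, hj2] at this
    omega

/-- The subgroup of the 512 elements. -/
def PS : Subgroup (Equiv.Perm W) where
  carrier := Set.range elP
  one_mem' := ⟨0, elP_zero⟩
  mul_mem' := by rintro _ _ ⟨i, rfl⟩ ⟨j, rfl⟩; exact ⟨mulF i j, elP_mul i j⟩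
  inv_mem' := by
    rintro _ ⟨i, rfl⟩
    exact ⟨invF i, (inv_eq_of_mul_eq_one_right
      (Equiv.ext fun n => el_inv_right i n)).symm⟩

theorem card_PS : Nat.card PS = 512 :=
  (Nat.card_congr (Equiv.ofInjective elP elP_injective)).symm.trans (Nat.card_fin 512)

theorem mulF_eq {i j k : Fin 512} (h : elP i * elP j = elP k) : mulF i j = k :=
  elP_injective ((elP_mul i j).trans h)

theorem c_sing : chk (fun n => if h : n < 4096 then
    singN.testBit n == decide (sing ⟨n, h⟩) && oneN.testBit n == decide (inOne 0 ⟨n, h⟩)
    else true) 12 0 = true := by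
  decide +kernel

theorem sing_bit (n : W) : singN.testBit n.val = decide (sing n) := by
  have := chk_spec _ 12 0 c_sing n.val (Nat.zero_le _) (by simpa using n.isLt)
  simp only [n.isLt, dif_pos, Bool.and_eq_true, beq_iff_eq] at this
  exact this.1

theorem one_bit (n : W) : oneN.testBit n.val = decide (inOne 0 n) := by
  have := chk_spec _ 12 0 c_sing n.val (Nat.zero_le _) (by simpa using n.isLt)
  simp only [n.isLt, dif_pos, Bool.and_eq_true, beq_iff_eq] at this
  exact this.2

/-- The leaf test of goodness. -/
def keepMasks (n v : ℕ) : Bool :=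
  singN.testBit n == singN.testBit v && oneN.testBit n == oneN.testBit v

/-- Commutation of a packed map with the scalar, on the basis. -/
def linB (c : ℕ) : Bool :=
  (List.finRange 12).all fun j => app c (om (bas j)) == om (app c (bas j))

/-- Anticommutation of a packed map with the scalar, on the basis. -/
def antiB (c : ℕ) : Bool :=
  (List.finRange 12).all fun j => app c (om (bas j)) == om (om (app c (bas j)))

theorem isLinMap_of_linB {c : ℕ} (h : linB c = true) : IsLinMap (app c) := by
  simp only [linB, List.all_eq_true, List.mem_finRange, forall_const, beq_iff_eq] at h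
  exact fun n => congrFun (isAdd_ext (isAdd_comp (isAdd_app c) om_add)
    (isAdd_comp om_add (isAdd_app c)) h) n

theorem isAntiMap_of_antiB {c : ℕ} (h : antiB c = true) : IsAntiMap (app c) := by
  simp only [antiB, List.all_eq_true, List.mem_finRange, forall_const, beq_iff_eq] at h
  exact fun n => congrFun (isAdd_ext (isAdd_comp (isAdd_app c) om_add)
    (isAdd_comp om_add (isAdd_comp om_add (isAdd_app c))) h) n

theorem isGood_of_app {g : Equiv.Perm W} {c : ℕ} (h : ∀ n, g n = app c n)
    (hm : chkA c keepMasks 12 0 0 = true) (hs : linB c || antiB c) : IsGood g := by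
  have hg : ⇑g = app c := funext h
  have hb : ∀ n, (sing (g n) ↔ sing n) ∧ (inOne 0 (g n) ↔ inOne 0 n) := fun n => by
    have := forall_of_chkA c keepMasks hm n
    simp only [keepMasks, Bool.and_eq_true, beq_iff_eq, sing_bit, one_bit, decide_eq_decide,
      ← h] at this
    exact ⟨this.1.symm, this.2.symm⟩
  refine ⟨by rw [hg]; exact isAdd_app c, fun n => (hb n).1, fun n => (hb n).2, ?_⟩
  simp only [Bool.or_eq_true] at hs
  rcases hs with hs | hs
  · exact Or.inl fun n => by rw [h, h]; exact isLinMap_of_linB hs n
  · exact Or.inr fun n => by rw [h, h]; exact isAntiMap_of_antiB hs n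

theorem c_gens : ((List.range 9).all fun k => chkA (elsC (k + 1)) keepMasks 12 0 0) = true := by
  decide +kernel

theorem c_lin : ((List.range 9).all fun k =>
    if linN.testBit (k + 1) then linB (elsC (k + 1)) else antiB (elsC (k + 1))) = true := by
  decide +kernel

theorem c_linpar : ((List.range 9).all fun k => (List.range 512).all fun i =>
    linN.testBit (nxt k i) == (linN.testBit (k + 1) == linN.testBit i)) = true := by
  decide +kernel

theorem elP_good_lin : ∀ f (i : Fin 512), chain f i.val = true →
    IsGood (elP i) ∧ (linN.testBit i.val = true ↔ elP i ∈ GL6) := by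
  have base : IsGood (elP 0) ∧ (linN.testBit (0 : Fin 512).val = true ↔ elP 0 ∈ GL6) := by
    rw [elP_zero]
    exact ⟨isGood_one, iff_of_true (by decide +kernel) GL6.one_mem⟩
  intro f
  induction f with
  | zero =>
    intro i h
    obtain rfl : i = 0 := Fin.ext (by simpa [chain] using h)
    exact base
  | succ f ih =>
    intro i h
    by_cases h0 : i.val = 0
    · obtain rfl : i = 0 := Fin.ext h0
      exact base
    simp only [chain, Bool.or_eq_true, beq_iff_eq, h0, false_or] at h
    obtain ⟨-, hp, hk, hn, -⟩ := tree_spec i.isLt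
    set g : Fin 512 := ⟨pk i.val + 1, by omega⟩ with hgdef
    set p : Fin 512 := ⟨par i.val, hp⟩
    have hi : elP i = elP g * elP p := Equiv.ext fun n => congrFun (el_tree i.isLt h0) n
    obtain ⟨hgp, hlp⟩ := ih p h
    have h1 := c_gens
    have h2 := c_lin
    have h3 := c_linpar
    simp only [List.all_eq_true, List.mem_range] at h1 h2 h3
    have hg : IsGood (elP g) ∧ (linN.testBit g.val = true ↔ elP g ∈ GL6) := by
      have hs := h2 _ hk
      by_cases hl : linN.testBit (pk i.val + 1)
      · rw [if_pos hl] at hs
        have hgood : IsGood (elP g) := isGood_of_app (fun _ => rfl) (h1 _ hk) (by simp [hgdef, hs])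
        exact ⟨hgood, iff_of_true hl ⟨hgood, fun n => isLinMap_of_linB hs n⟩⟩
      · rw [if_neg hl] at hs
        have hgood : IsGood (elP g) := isGood_of_app (fun _ => rfl) (h1 _ hk) (by simp [hgdef, hs])
        exact ⟨hgood, iff_of_false hl fun hm =>
          not_lin_and_anti hm.2 fun n => isAntiMap_of_antiB hs n⟩
    refine ⟨hi ▸ hg.1.mul hgp, ?_⟩
    have h4 := h3 _ hk _ hp
    simp only [beq_iff_eq, hn.resolve_left h0] at h4
    rw [hi, h4]
    have hg2 := hg.2
    have hlp' := hlp
    change linN.testBit (pk i.val + 1) = true ↔ _ at hg2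
    change linN.testBit (par i.val) = true ↔ _ at hlp'
    by_cases a : elP g ∈ GL6 <;> by_cases b : elP p ∈ GL6
    · simp [hg2.2 a, hlp'.2 b, GL6.mul_mem a b]
    · simp only [hg2.2 a, (by simpa [b] using hlp' : linN.testBit (par i.val) = false)]
      exact iff_of_false (by simp) fun hm => b ((GL6.mul_mem_cancel_left a).1 hm)
    · simp only [hlp'.2 b, (by simpa [a] using hg2 : linN.testBit (pk i.val + 1) = false)]
      exact iff_of_false (by simp) fun hm => a ((GL6.mul_mem_cancel_right b).1 hm)
    · simp only [(by simpa [a] using hg2 : linN.testBit (pk i.val + 1) = false),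
        (by simpa [b] using hlp' : linN.testBit (par i.val) = false)]
      exact iff_of_true (by simp) (mul_mem_GL6 hg.1 hgp a b)

theorem elP_good (i : Fin 512) : IsGood (elP i) := (elP_good_lin 6 i (tree_spec i.isLt).1).1

theorem lin_iff (i : Fin 512) : linN.testBit i.val = true ↔ elP i ∈ GL6 :=
  (elP_good_lin 6 i (tree_spec i.isLt).1).2

theorem PS_le : PS ≤ GX := by
  rintro _ ⟨i, rfl⟩
  exact elP_good i

end CfsgLib.LargeFischer28
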