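import Cfsg.Agent.LargeFischer28.Base

/-!
The group of good maps: linearity, products, and a test of goodness by doubling along the columns.
-/

set_option autoImplicit false

namespace CfsgLib.LargeFischer28

open CfsgLib.LargeFischer85

/-- Linearity over the field with four elements. -/
def IsLinMap (g : W → W) : Prop := ∀ n, g (om n) = om (g n)

/-- Antilinearity. -/
def IsAntiMap (g : W → W) : Prop := ∀ n, g (om n) = om (om (g n))

theorem om_fix {n : W} (h : om n = n) : n = 0 := by
  have := forall_of_chk (fun n => decide (om n = n → n = 0)) (by decide +kernel) n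
  exact (decide_eq_true_iff.1 this) h

theorem om_inj : Function.Injective om := fun a b h => by
  rw [← om_cube a, h, om_cube]

theorem isLinMap_comp {f g : W → W} (hf : IsLinMap f) (hg : IsLinMap g) : IsLinMap (f ∘ g) :=
  fun n => by simp [Function.comp, hg n, hf _]

theorem isLinMap_anti_anti {f g : W → W} (hf : IsAntiMap f) (hg : IsAntiMap g) :
    IsLinMap (f ∘ g) :=
  fun n => by simp [Function.comp, hg n, hf _, om_cube]

theorem isAntiMap_lin_anti {f g : W → W} (hf : IsLinMap f) (hg : IsAntiMap g) :
    IsAntiMap (f ∘ g) :=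
  fun n => by simp [Function.comp, hg n, hf _]

theorem isAntiMap_anti_lin {f g : W → W} (hf : IsAntiMap f) (hg : IsLinMap g) :
    IsAntiMap (f ∘ g) :=
  fun n => by simp [Function.comp, hg n, hf _]

theorem not_lin_and_anti {g : Equiv.Perm W} (hl : IsLinMap g) (ha : IsAntiMap g) : False := by
  have h : ∀ n, g n = 0 := fun n => by
    have := (hl n).symm.trans (ha n)
    exact om_fix (om_inj this).symm
  have := g.injective ((h 0).trans (h 1).symm)
  exact absurd this (by decide)

theorem isGood_one : IsGood (1 : Equiv.Perm W) :=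
  ⟨fun _ _ => rfl, fun _ => Iff.rfl, fun _ => Iff.rfl, Or.inl fun _ => rfl⟩

theorem IsGood.mul {g h : Equiv.Perm W} (hg : IsGood g) (hh : IsGood h) : IsGood (g * h) where
  add a b := by simp [Equiv.Perm.mul_apply, hh.add _ _, hg.add _ _]
  sing_iff n := (hg.sing_iff _).trans (hh.sing_iff n)
  one_iff n := (hg.one_iff _).trans (hh.one_iff n)
  semi := by
    rcases hg.semi with a | a <;> rcases hh.semi with b | b
    · exact Or.inl fun n => isLinMap_comp a b n
    · exact Or.inr fun n => isAntiMap_lin_anti a b n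
    · exact Or.inr fun n => isAntiMap_anti_lin a b n
    · exact Or.inl fun n => isLinMap_anti_anti a b n

theorem IsGood.inv {g : Equiv.Perm W} (hg : IsGood g) : IsGood g⁻¹ where
  add a b := g.injective (by simp [hg.add _ _])
  sing_iff n := by rw [← hg.sing_iff (g⁻¹ n)]; simp
  one_iff n := by rw [← hg.one_iff (g⁻¹ n)]; simp
  semi := by
    rcases hg.semi with a | a
    · exact Or.inl fun n => g.injective (by simp [a _])
    · exact Or.inr fun n => g.injective (by simp [a _, om_cube])

/-- The group of the good maps. -/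
def GX : Subgroup (Equiv.Perm W) where
  carrier := {g | IsGood g}
  one_mem' := isGood_one
  mul_mem' := IsGood.mul
  inv_mem' := IsGood.inv

theorem mem_GX {g : Equiv.Perm W} : g ∈ GX ↔ IsGood g := Iff.rfl

/-- The linear good maps. -/
def GL6 : Subgroup (Equiv.Perm W) where
  carrier := {g | IsGood g ∧ IsLinMap g}
  one_mem' := ⟨isGood_one, fun _ => rfl⟩
  mul_mem' h h' := ⟨h.1.mul h'.1, fun n => isLinMap_comp h.2 h'.2 n⟩
  inv_mem' {g} h := ⟨h.1.inv, fun n => g.injective (by simp [h.2 _])⟩

theorem mem_GL6 {g : Equiv.Perm W} : g ∈ GL6 ↔ IsGood g ∧ IsLinMap g := Iff.rfl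

theorem GL6_le : GL6 ≤ GX := fun _ h => h.1

theorem anti_of_not_lin {g : Equiv.Perm W} (hg : IsGood g) (h : g ∉ GL6) : IsAntiMap g :=
  hg.semi.resolve_left fun a => h ⟨hg, a⟩

theorem mul_mem_GL6 {g h : Equiv.Perm W} (hg : IsGood g) (hh : IsGood h) (a : g ∉ GL6)
    (b : h ∉ GL6) : g * h ∈ GL6 :=
  ⟨hg.mul hh, fun n => isLinMap_anti_anti (anti_of_not_lin hg a) (anti_of_not_lin hh b) n⟩

theorem app_bas (c : ℕ) (j : Fin 12) : (app c (bas j)).val = col c j.val := by
  revert c j
  intro c j
  fin_cases j <;> simp [app, appN, bas, Nat.testBit]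

/-- A test of a property of all pairs vector-image, by doubling along the columns. -/
def chkA (c : ℕ) (P : ℕ → ℕ → Bool) : ℕ → ℕ → ℕ → Bool
  | 0, n, v => P n v
  | k + 1, n, v => chkA c P k n v && chkA c P k (n + 2 ^ k) (v ^^^ col c k)

theorem appN_add_pow (c : ℕ) : ∀ k j r, j ≤ k → r < 2 ^ k → appN c j (2 ^ k + r) = appN c j r
  | _, 0, _, _, _ => rfl
  | k, j + 1, r, hj, hr => by
    simp only [appN]
    rw [appN_add_pow c k j r (by omega) hr, Nat.testBit_two_pow_add_gt (by omega) r]

theorem chkA_spec (c : ℕ) (P : ℕ → ℕ → Bool) : ∀ k n v, chkA c P k n v = true →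
    ∀ m, m < 2 ^ k → P (n + m) (v ^^^ appN c k m) = true
  | 0, n, v, h, m, hm => by
    obtain rfl : m = 0 := by simpa using hm
    simp only [chkA] at h
    simpa [appN] using h
  | k + 1, n, v, h, m, hm => by
    simp only [chkA, Bool.and_eq_true] at h
    rw [pow_succ] at hm
    rcases Nat.lt_or_ge m (2 ^ k) with h' | h'
    · have := chkA_spec c P k n v h.1 m h'
      simpa [appN, Nat.testBit_lt_two_pow h'] using this
    · obtain ⟨r, rfl⟩ := Nat.exists_eq_add_of_le h'
      have := chkA_spec c P k _ _ h.2 r (by omega)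
      simp only [appN, appN_add_pow c k k r le_rfl (by omega), Nat.testBit_two_pow_add_eq,
        Nat.testBit_lt_two_pow (show r < 2 ^ k by omega), Bool.not_false, if_true]
      rw [Nat.add_assoc] at this
      rw [Nat.xor_comm (appN c k r)] 
      rwa [← Nat.xor_assoc]

theorem forall_of_chkA (c : ℕ) (P : ℕ → ℕ → Bool) (h : chkA c P 12 0 0 = true) (n : W) :
    P n.val (app c n).val = true := by
  have := chkA_spec c P 12 0 0 h n.val (by simpa using n.isLt)
  simpa [app] using this

end CfsgLib.LargeFischer28
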