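import Cfsg.Agent.LargeFischer28.Pattern
import Cfsg.Agent.LargeFischer28.Bound

/-!
The elementary abelian subgroup of order `2 ^ 11` in a Sylow 2-subgroup of `C(z)`, from a faithful
action of `H/Q` on the frame model by good maps.
-/

set_option autoImplicit false

namespace CfsgLib.LargeFischer28

open CfsgLib.LargeFischer85

variable {G : Type*} [Group G]

/-- What is needed of `H/Q` and its action on `Q` modulo its centre. -/
structure Model (z : G) (Q : Subgroup (Subgroup.centralizer ({z} : Set G))) [Q.Normal]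
    (pr : ↥Q → W) (act : (↥(Subgroup.centralizer ({z} : Set G)) ⧸ Q) →* Equiv.Perm W) : Prop where
  ord : orderOf z = 2
  mem : (⟨z, Subgroup.mem_centralizer_singleton_iff.2 rfl⟩ :
    Subgroup.centralizer ({z} : Set G)) ∈ Q
  pr_mul : ∀ a b : ↥Q, pr (a * b) = vadd (pr a) (pr b)
  pr_zero : ∀ a : ↥Q, pr a = 0 ↔ (((a : Subgroup.centralizer ({z} : Set G)) : G) = 1 ∨
    ((a : Subgroup.centralizer ({z} : Set G)) : G) = z)
  pr_surj : ∀ v, ∃ a : ↥Q, pr a = v
  pr_sq : ∀ a : ↥Q, sing (pr a) ↔ a * a = 1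
  bound : ∀ A : Subgroup ↥Q, (∀ a ∈ A, a * a = 1) → Nat.card A ≤ 2 ^ 7
  act_inj : Function.Injective act
  act_pr : ∀ (h : Subgroup.centralizer ({z} : Set G)) (a b : ↥Q),
    (b : Subgroup.centralizer ({z} : Set G)) = h * a * h⁻¹ →
      act (QuotientGroup.mk' Q h) (pr a) = pr b
  good : ∀ k, IsGood (act k)
  card : Nat.card (↥(Subgroup.centralizer ({z} : Set G)) ⧸ Q) = 19595520
  anti : ∃ k, act k ∉ GL6

theorem vadd_self (v : W) : vadd v v = 0 := Fin.ext (by rw [vadd_val, Nat.xor_self]; rfl)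

theorem vadd_comm' (a b : W) : vadd a b = vadd b a :=
  Fin.ext (by rw [vadd_val, vadd_val, Nat.xor_comm])

theorem vadd_zero' (a : W) : vadd a 0 = a := Fin.ext (by rw [vadd_val]; simp)

theorem c_a0closed : (a0J.all fun x => a0J.all fun y =>
    (x == y && mulN (jN x) (jN y) == 0) ||
      a0J.any fun q => mulN (jN x) (jN y) == jN q) = true := by
  decide +kernel

theorem inA0_mul {g h : Equiv.Perm W} (hg : inA0 g) (hh : inA0 h) : inA0 (g * h) := by
  rcases hg with rfl | ⟨a, ha, rfl⟩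
  · rwa [one_mul]
  rcases hh with rfl | ⟨b, hb, rfl⟩
  · rw [mul_one]; exact Or.inr ⟨a, ha, rfl⟩
  have h := c_a0closed
  simp only [List.all_eq_true, List.any_eq_true, Bool.or_eq_true, Bool.and_eq_true, beq_iff_eq] at h
  have e : jP a * jP b = elP (mulF (jF a) (jF b)) := (elP_mul _ _).symm
  rcases h a.val ha b.val hb with ⟨-, h0⟩ | ⟨q, hq, hmul⟩
  · rw [e, show mulF (jF a) (jF b) = 0 from Fin.ext h0, elP_zero]
    exact Or.inl rfl
  · have hq' : q < 107 := by
      have := c_a0flag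
      simp only [List.all_eq_true, Bool.and_eq_true, decide_eq_true_eq] at this
      exact (this q hq).1.1
    exact Or.inr ⟨⟨q, hq'⟩, hq, by rw [e]; exact congrArg elP (Fin.ext hmul)⟩

theorem c_a0inv : ((a0J.all fun x => mulN (jN x) (jN x) == 0) && decide a0J.Nodup &&
    a0J.length == 15) = true := by
  decide +kernel

theorem inA0_sq {g : Equiv.Perm W} (hg : inA0 g) : g * g = 1 := by
  rcases hg with rfl | ⟨a, ha, rfl⟩
  · exact one_mul 1
  have h := c_a0inv
  simp only [Bool.and_eq_true, List.all_eq_true, beq_iff_eq] at h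
  rw [jP, ← elP_mul, show mulF (jF a) (jF a) = 0 from Fin.ext (h.1.1 a.val ha), elP_zero]

/-- The elementary subgroup of order 16. -/
def A0 : Subgroup (Equiv.Perm W) where
  carrier := {g | inA0 g}
  one_mem' := Or.inl rfl
  mul_mem' := inA0_mul
  inv_mem' {g} hg := by
    show inA0 g⁻¹
    rw [inv_eq_of_mul_eq_one_right (inA0_sq hg)]
    exact hg

theorem mem_A0 {g : Equiv.Perm W} : g ∈ A0 ↔ inA0 g := Iff.rfl

theorem card_A0 : Nat.card A0 = 16 := by
  classical
  have h := c_a0inv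
  simp only [Bool.and_eq_true, beq_iff_eq, decide_eq_true_eq] at h
  obtain ⟨⟨-, hnd⟩, hlen⟩ := h
  have hflag := c_a0flag
  simp only [List.all_eq_true, Bool.and_eq_true, decide_eq_true_eq] at hflag
  let l : List (Fin 107) := a0J.pmap (fun x hx => ⟨x, hx⟩) fun x hx => (hflag x hx).1.1
  have hl : ∀ a : Fin 107, a ∈ l ↔ a.val ∈ a0J := fun a => by
    simp only [l, List.mem_pmap]
    exact ⟨fun ⟨x, hx, e⟩ => e ▸ hx, fun hx => ⟨a.val, hx, rfl⟩⟩
  have hlnd : l.Nodup := hnd.pmap fun _ _ _ _ e => congrArg Fin.val e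
  have e : (A0 : Set (Equiv.Perm W)) = ↑(insert 1 (l.map jP).toFinset) := by
    ext g
    simp only [SetLike.mem_coe, mem_A0, inA0, Finset.coe_insert, Set.mem_insert_iff,
      List.coe_toFinset, List.mem_map, hl]
    exact or_congr_right ⟨fun ⟨a, h1, h2⟩ => ⟨a, (hl a).2 h1 |> (hl a).1, h2.symm⟩,
      fun ⟨a, h1, h2⟩ => ⟨a, h1, h2.symm⟩⟩
  rw [show Nat.card A0 = Nat.card (A0 : Set (Equiv.Perm W)) from rfl, Nat.card_coe_set_eq, e,
    Set.ncard_coe_finset, Finset.card_insert_of_notMem,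
    List.toFinset_card_of_nodup (hlnd.map jP_inj), List.length_map, List.length_pmap, hlen]
  simp only [List.mem_toFinset, List.mem_map, not_exists, not_and]
  exact fun a _ h => jP_ne_one a h

theorem A0_le_PS : A0 ≤ PS := by
  rintro g (rfl | ⟨a, -, rfl⟩)
  · exact PS.one_mem
  · exact ⟨jF a, rfl⟩

section

variable {z : G} {Q : Subgroup (Subgroup.centralizer ({z} : Set G))} [Q.Normal] {pr : ↥Q → W}
  {act : (↥(Subgroup.centralizer ({z} : Set G)) ⧸ Q) →* Equiv.Perm W}

/-- The element `z` inside its centraliser. -/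
def zC (z : G) : ↥(Subgroup.centralizer ({z} : Set G)) :=
  ⟨z, Subgroup.mem_centralizer_singleton_iff.2 rfl⟩

theorem zC_comm (h : ↥(Subgroup.centralizer ({z} : Set G))) : zC z * h = h * zC z :=
  Subtype.ext (Subgroup.mem_centralizer_singleton_iff.1 h.2).symm

variable (hM : Model z Q pr act)
include hM

theorem zC_ne : zC z ≠ 1 := fun e => by
  have := congrArg Subtype.val e
  have h2 := hM.ord
  rw [show z = 1 from this, orderOf_one] at h2
  exact absurd h2 (by norm_num)

theorem zC_sq : zC z * zC z = 1 := Subtype.ext (by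
  show z * z = 1
  rw [← sq, ← hM.ord]
  exact pow_orderOf_eq_one z)

theorem pr_zero' (a : ↥Q) : pr a = 0 ↔ (a : ↥(Subgroup.centralizer ({z} : Set G))) = 1 ∨ (a : ↥(Subgroup.centralizer ({z} : Set G))) = zC z := by
  rw [hM.pr_zero, Subtype.ext_iff, Subtype.ext_iff (a2 := zC z)]
  rfl

theorem eq_or_of_pr {a b : ↥Q} (h : pr a = pr b) : (a : ↥(Subgroup.centralizer ({z} : Set G))) = b ∨ (a : ↥(Subgroup.centralizer ({z} : Set G))) = b * zC z := by
  have h1 : pr (b⁻¹ * a) = 0 := by
    have h2 := hM.pr_mul b (b⁻¹ * a)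
    rw [mul_inv_cancel_left, h] at h2
    refine Fin.ext ?_
    have h3 := congrArg Fin.val h2
    rw [vadd_val] at h3
    have h4 : (pr b).val ^^^ (pr b).val = (pr b).val ^^^ ((pr b).val ^^^ (pr (b⁻¹ * a)).val) :=
      congrArg ((pr b).val ^^^ ·) h3
    rw [Nat.xor_self, ← Nat.xor_assoc, Nat.xor_self, Nat.zero_xor] at h4
    exact h4.symm
  rcases (pr_zero' hM _).1 h1 with h2 | h2
  · left
    rw [Subgroup.coe_mul, InvMemClass.coe_inv, inv_mul_eq_one] at h2
    exact h2.symm
  · right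
    rw [Subgroup.coe_mul, InvMemClass.coe_inv, inv_mul_eq_iff_eq_mul] at h2
    exact h2

theorem flip {x : ↥(Subgroup.centralizer ({z} : Set G))} {b : ↥Q} (h : act (QuotientGroup.mk' Q x) (pr b) = pr b) :
    x * b = b * x ∨ x * b = b * x * zC z := by
  have hmem : x * b * x⁻¹ ∈ Q := (inferInstance : Q.Normal).conj_mem _ b.2 x
  have := (hM.act_pr x b ⟨_, hmem⟩ rfl).symm.trans h
  rcases eq_or_of_pr hM this with h2 | h2
  · exact Or.inl (mul_inv_eq_iff_eq_mul.1 h2)
  · refine Or.inr ((mul_inv_eq_iff_eq_mul.1 h2).trans ?_)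
    rw [mul_assoc, zC_comm, ← mul_assoc]

theorem act_Q (q : ↥Q) : act (QuotientGroup.mk' Q q) = 1 := by
  rw [show QuotientGroup.mk' Q (q : ↥(Subgroup.centralizer ({z} : Set G))) = 1 from (QuotientGroup.eq_one_iff _).2 q.2, map_one]

theorem sq_cases (a : ↥Q) : (a : ↥(Subgroup.centralizer ({z} : Set G))) * a = 1 ∨ (a : ↥(Subgroup.centralizer ({z} : Set G))) * a = zC z := by
  have := (pr_zero' hM (a * a)).1 (by rw [hM.pr_mul, vadd_self])
  simpa using this

theorem comm_iff_orth (a b : ↥Q) : (a : ↥(Subgroup.centralizer ({z} : Set G))) * b = b * a ↔ orth (pr a) (pr b) := by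
  have e : (a : ↥(Subgroup.centralizer ({z} : Set G))) * b = b * a ↔ ((a : ↥(Subgroup.centralizer ({z} : Set G))) * b) * (a * b) = (a * a) * (b * b) := by
    constructor
    · intro h
      calc ((a : ↥(Subgroup.centralizer ({z} : Set G))) * b) * (a * b) = a * (b * a) * b := by group
        _ = a * (a * b) * b := by rw [h]
        _ = _ := by group
    · intro h
      have h2 : (a : ↥(Subgroup.centralizer ({z} : Set G))) * ((b * a) * b) = a * ((a * b) * b) :=
        calc (a : ↥(Subgroup.centralizer ({z} : Set G))) * ((b * a) * b) = ((a : ↥(Subgroup.centralizer ({z} : Set G))) * b) * (a * b) := by group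
          _ = _ := h
          _ = _ := by group
      exact (mul_right_cancel (mul_left_cancel h2)).symm
  rw [e]
  have hab := hM.pr_sq (a * b)
  have ha := hM.pr_sq a
  have hb := hM.pr_sq b
  have hab' := sq_cases hM (a * b)
  have ha' := sq_cases hM a
  have hb' := sq_cases hM b
  rw [hM.pr_mul, Subtype.ext_iff] at hab
  rw [Subtype.ext_iff] at ha hb
  simp only [Subgroup.coe_mul, Subgroup.coe_one] at hab ha hb hab' 
  have hz := zC_ne hM
  simp only [sing] at hab ha hb
  simp only [orth]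
  rcases hab' with x | x <;> rcases ha' with y | y <;> rcases hb' with w | w <;>
    simp only [x, y, w, zC_sq hM, one_mul, mul_one, hz, Ne.symm hz, iff_true, iff_false, true_iff,
      false_iff] at hab ha hb ⊢ <;>
    omega

/-- `Q` as pairs of a vector and a sign. -/
theorem card_subset (P : W → Prop) :
    Nat.card {q : ↥Q // P (pr q)} = 2 * Nat.card {v : W // P v} := by
  classical
  let sec : W → ↥Q := fun v => (hM.pr_surj v).choose
  have hsec : ∀ v, pr (sec v) = v := fun v => (hM.pr_surj v).choose_spec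
  let zQ : ↥Q := ⟨zC z, hM.mem⟩
  have hz0 : ∀ q : ↥Q, pr (q * zQ) = pr q := fun q => by
    rw [hM.pr_mul, show pr zQ = 0 from (pr_zero' hM zQ).2 (Or.inr rfl), vadd_zero']
  have hzne : ∀ q : ↥Q, q * zQ ≠ q := fun q e => zC_ne hM
    (congrArg Subtype.val (mul_eq_left.1 e : zQ = 1))
  let e : {q : ↥Q // P (pr q)} ≃ {v : W // P v} × Bool :=
    { toFun := fun q => (⟨pr q.1, q.2⟩, decide (q.1 = sec (pr q.1)))
      invFun := fun p => ⟨if p.2 then sec p.1.1 else sec p.1.1 * zQ, by
        split <;> simp only [hz0, hsec] <;> exact p.1.2⟩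
      left_inv := fun q => by
        refine Subtype.ext ?_
        by_cases h : q.1 = sec (pr q.1)
        · simp [← h]
        · simp only [h, decide_false, Bool.false_eq_true, if_false]
          rcases eq_or_of_pr hM (hsec (pr q.1)).symm with h2 | h2
          · exact absurd (Subtype.ext h2) h
          · exact (Subtype.ext h2).symm
      right_inv := fun p => by
        obtain ⟨⟨v, hv⟩, b⟩ := p
        cases b <;> simp [hz0, hsec, hzne] }
  rw [Nat.card_congr e, Nat.card_prod]
  simp [mul_comm]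

variable [Finite G]

/-- The theorem, when the Sylow subgroup lands in the standard one. -/
theorem main (T : Sylow 2 ↥(Subgroup.centralizer ({z} : Set G))) (hT : ∀ t ∈ (T : Subgroup ↥(Subgroup.centralizer ({z} : Set G))), act (QuotientGroup.mk' Q t) ∈ PS) :
    ∃ A : Subgroup ↥(Subgroup.centralizer ({z} : Set G)), A ≤ T ∧ (∀ a ∈ A, a * a = 1) ∧ Nat.card A = 2 ^ 11 ∧
      Nat.card ↥(A ⊓ Q) = 2 ^ 7 ∧ Nat.card ↥(A.map (QuotientGroup.mk' Q)) = 16 ∧
      ∀ B : Subgroup ↥(Subgroup.centralizer ({z} : Set G)), B ≤ T → (∀ b ∈ B, b * b = 1) → 2 ^ 11 ≤ Nat.card B → B = A := by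
  classical
  set f : ↥(Subgroup.centralizer ({z} : Set G)) →* Equiv.Perm W := act.comp (QuotientGroup.mk' Q) with hfdef
  have fker : ∀ h, f h = 1 ↔ h ∈ Q := fun h => by
    rw [← QuotientGroup.eq_one_iff (N := Q) h]
    exact ⟨fun e => hM.act_inj (e.trans (map_one act).symm), fun e => by
      show act (h : ↥(Subgroup.centralizer ({z} : Set G)) ⧸ Q) = 1
      rw [e, map_one]⟩
  have hR : f.range ≤ GX := by rintro _ ⟨h, rfl⟩; exact hM.good _
  have hRc : Nat.card f.range = 19595520 := by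
    rw [hfdef, MonoidHom.range_comp, QuotientGroup.range_mk', ← MonoidHom.range_eq_map,
      ← Nat.card_congr (MonoidHom.ofInjective hM.act_inj).toEquiv, hM.card]
  obtain ⟨u, huR, huL⟩ : ∃ u ∈ f.range, u ∉ GL6 := by
    obtain ⟨k, hk⟩ := hM.anti
    obtain ⟨c, rfl⟩ := QuotientGroup.mk'_surjective Q k
    exact ⟨_, ⟨c, rfl⟩, hk⟩
  obtain ⟨hsq, hflag, -⟩ := group_facts hR hRc huR huL
  -- the Sylow subgroup is the full preimage
  have hQ2 : IsPGroup 2 f.ker := by
    refine IsPGroup.of_card (n := 13) ?_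
    rw [show f.ker = Q from Subgroup.ext fker,
      ← Nat.card_congr (Equiv.subtypeUnivEquiv (p := fun q : ↥Q => (fun _ => True) (pr q))
        fun _ => trivial), card_subset hM (fun _ => True),
      Nat.card_congr (Equiv.subtypeUnivEquiv fun _ => trivial), Nat.card_fin]
    norm_num
  have hTeq : (T : Subgroup ↥(Subgroup.centralizer ({z} : Set G))) = PS.comap f := by
    refine (T.is_maximal' (IsPGroup.comap_of_ker_isPGroup ?_ f hQ2) fun t ht => Subgroup.mem_comap.2 (hT t ht)).symm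
    exact IsPGroup.of_card (n := 9) (by rw [card_PS]; norm_num)
  -- the subgroup
  let A : Subgroup ↥(Subgroup.centralizer ({z} : Set G)) :=
    { carrier := {h | f h ∈ A0 ∧ ∀ q : ↥Q, inB0 (pr q) → h * q = q * h}
      one_mem' := ⟨by rw [map_one]; exact A0.one_mem, fun q _ => by rw [one_mul, mul_one]⟩
      mul_mem' := fun {a b} ha hb => ⟨by rw [map_mul]; exact A0.mul_mem ha.1 hb.1, fun q hq => by
        rw [mul_assoc, hb.2 q hq, ← mul_assoc, ha.2 q hq, mul_assoc]⟩
      inv_mem' := fun {a} ha => ⟨by rw [map_inv]; exact A0.inv_mem ha.1, fun q hq => by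
        rw [eq_mul_inv_iff_mul_eq, mul_assoc, ← ha.2 q hq, inv_mul_cancel_left]⟩ }
  have memA : ∀ h, h ∈ A ↔ f h ∈ A0 ∧ ∀ q : ↥Q, inB0 (pr q) → h * q = q * h := fun _ => Iff.rfl
  have hQA : ∀ q : ↥Q, (q : ↥(Subgroup.centralizer ({z} : Set G))) ∈ A ↔ inB0 (pr q) := by
    intro q
    rw [memA, (fker _).2 q.2]
    refine ⟨fun h => inB0_of_orth fun i => ?_, fun h => ⟨A0.one_mem, fun p hp =>
      (comm_iff_orth hM q p).2 (((b0_spec h).2.2 _ hp).1)⟩⟩
    obtain ⟨p, hp⟩ := hM.pr_surj (bv i.val)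
    rw [← hp]
    exact (comm_iff_orth hM p q).1 (h.2 p (hp.symm ▸ inB0_bv i)).symm
  -- every element of `A₀` lifts into the subgroup
  have hsurj : ∀ a, inA0 a → ∃ h ∈ A, f h = a := by
    intro a ha
    obtain ⟨h0, rfl⟩ : a ∈ f.range := by
      rcases ha with rfl | ⟨i, hi, rfl⟩
      · exact f.range.one_mem
      · have := c_a0flag
        simp only [List.all_eq_true, Bool.and_eq_true] at this
        exact flag_mem hsq _ (this _ hi).1.2
    choose p hp using fun i : Fin 6 => hM.pr_surj (bv i.val)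
    obtain ⟨v, hv⟩ := exists_dual fun i => decide (h0 * p i = p i * h0)
    obtain ⟨q, rfl⟩ := hM.pr_surj v
    have fq : f (h0 * q) = f h0 := by rw [map_mul, (fker _).2 q.2, mul_one]
    refine ⟨h0 * q, (memA _).2 ⟨by rw [fq]; exact ha, ?_⟩, fq⟩
    have hi : ∀ i, h0 * q * (p i : ↥(Subgroup.centralizer ({z} : Set G))) = p i * (h0 * q) := by
      intro i
      have h1 := hv i
      rw [decide_eq_true_eq, ← hp i, ← comm_iff_orth hM] at h1
      have hb0 : f h0 (pr (p i)) = pr (p i) := by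
        rw [hp i]; exact (b0_spec (inB0_bv i)).2.1 _ ha
      by_cases hc : h0 * p i = p i * h0
      · rw [mul_assoc, ← h1.2 hc, ← mul_assoc, hc, mul_assoc]
      · have hq' : (q : ↥(Subgroup.centralizer ({z} : Set G))) * p i = p i * q * zC z :=
          (flip hM (by rw [act_Q hM]; rfl)).resolve_left fun e => hc (h1.1 e.symm)
        have hh' : h0 * p i = p i * h0 * zC z := (flip hM hb0).resolve_left hc
        calc h0 * q * (p i : ↥(Subgroup.centralizer ({z} : Set G))) = h0 * (p i * q * zC z) := by rw [mul_assoc, hq']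
          _ = (h0 * p i) * q * zC z := by group
          _ = p i * h0 * (zC z * q) * zC z := by rw [hh']; group
          _ = p i * h0 * (q * zC z) * zC z := by rw [zC_comm]
          _ = p i * (h0 * q) * (zC z * zC z) := by group
          _ = _ := by rw [zC_sq hM, mul_one]
    have hspan : ∀ l : List ℕ, (∀ e ∈ l, ∃ i : Fin 6, (bv i.val).val = e) → ∀ n ∈ spanN l,
        ∃ b : ↥Q, (pr b).val = n ∧ h0 * q * b = b * (h0 * q) := by
      intro l
      induction l with
      | nil =>
        intro _ n hn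
        obtain rfl : n = 0 := by simpa [spanN] using hn
        exact ⟨1, by rw [(pr_zero' hM 1).2 (Or.inl rfl)]; rfl, by simp⟩
      | cons e l ih =>
        intro hl n hn
        have hl' : ∀ e ∈ l, ∃ i : Fin 6, (bv i.val).val = e := fun e he => hl e (List.mem_cons_of_mem _ he)
        simp only [spanN, List.mem_append, List.mem_map] at hn
        rcases hn with hn | ⟨m, hm, rfl⟩
        · exact ih hl' n hn
        · obtain ⟨i, rfl⟩ := hl e (List.mem_cons_self ..)
          obtain ⟨b, rfl, hb⟩ := ih hl' m hm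
          refine ⟨b * p i, by rw [hM.pr_mul, vadd_val, hp], ?_⟩
          rw [Subgroup.coe_mul, ← mul_assoc, hb, mul_assoc, hi i, ← mul_assoc]
    intro b hb
    have hl : ∀ e ∈ b0Basis, ∃ i : Fin 6, (bv i.val).val = e := by decide +kernel
    obtain ⟨b', hb', hbc⟩ := hspan _ hl _ hb
    rcases eq_or_of_pr hM (Fin.ext hb').symm with e | e
    · rw [e]; exact hbc
    · rw [e, ← mul_assoc, hbc, mul_assoc, ← zC_comm, ← mul_assoc]
  -- squares
  have hAQ : ∀ h ∈ A, h ∈ Q → h * h = 1 := fun h hh hq => by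
    have := (hM.pr_sq ⟨h, hq⟩).1 (b0_spec ((hQA ⟨h, hq⟩).1 hh)).1
    exact congrArg Subtype.val this
  have hsame : ∀ h ∈ A, ∀ k ∈ A, f h = f k → h * h = k * k := by
    intro h hh k hk e
    have hq : h⁻¹ * k ∈ Q := (fker _).1 (by rw [map_mul, map_inv, e, inv_mul_cancel])
    set b := h⁻¹ * k
    have hb : b ∈ A := A.mul_mem (A.inv_mem hh) hk
    have hc : h * b = b * h := hh.2 ⟨b, hq⟩ ((hQA ⟨b, hq⟩).1 hb)
    rw [show k = h * b by simp [b]]
    calc h * h = h * h * (b * b) := by rw [hAQ b hb hq, mul_one]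
      _ = h * (h * b) * b := by group
      _ = h * (b * h) * b := by rw [hc]
      _ = _ := by group
  have hconj : ∀ m, IsMover m → ∀ h ∈ A, inA0 (m * f h * m⁻¹) →
      ∃ n : ↥(Subgroup.centralizer ({z} : Set G)), f n = m ∧ n * h * n⁻¹ ∈ A := by
    intro m hm h hh hmem
    obtain ⟨n, rfl⟩ : m ∈ f.range := hm.sq _ hsq
    refine ⟨n, rfl, (memA _).2 ⟨by rw [map_mul, map_mul, map_inv]; exact hmem, fun q hq => ?_⟩⟩
    have hmemq : n⁻¹ * q * n ∈ Q := by
      simpa using (inferInstance : Q.Normal).conj_mem _ q.2 n⁻¹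
    have hin : inB0 (pr ⟨_, hmemq⟩) := (hm.stab _).1 (by
      have := hM.act_pr n ⟨_, hmemq⟩ q (by group)
      show inB0 (f n _)
      rw [show f n (pr ⟨_, hmemq⟩) = pr q from this]
      exact hq)
    have := hh.2 _ hin
    calc n * h * n⁻¹ * q = n * (h * (n⁻¹ * q * n)) * n⁻¹ := by group
      _ = n * ((n⁻¹ * q * n) * h) * n⁻¹ := by rw [this]
      _ = _ := by group
  have hsqz : ∀ h ∈ A, h * h = 1 ∨ h * h = zC z := by
    intro h hh
    have hlin := inA0_lin hh.1
    have hcom : omP * f h * omP⁻¹ = f h := by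
      rw [mul_inv_eq_iff_eq_mul]
      exact Equiv.ext fun v => (hlin.2 v).symm
    obtain ⟨n, hn, hnA⟩ := hconj omP isMover_om h hh (by rw [hcom]; exact hh.1)
    have he := hsame h hh _ hnA (by rw [map_mul, map_mul, map_inv, hn, hcom])
    have hq : h * h ∈ Q := (fker _).1 (by rw [map_mul]; exact inA0_sq hh.1)
    have h3 := hM.act_pr n ⟨_, hq⟩ ⟨_, hq⟩ (he.trans (by group))
    rw [show act (QuotientGroup.mk' Q n) = omP from hn] at h3
    exact (pr_zero' hM ⟨_, hq⟩).1 (om_fix h3)
  have hconst : ∀ h ∈ A, ∀ k ∈ A, h ∉ Q → k ∉ Q → h * h = k * k := by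
    intro h hh k hk h1 k1
    obtain ⟨m, hm, hme⟩ := exists_mover hh.1 hk.1 (fun e => h1 ((fker h).1 e))
      (fun e => k1 ((fker k).1 e))
    obtain ⟨n, hn, hnA⟩ := hconj m hm h hh (by rw [hme]; exact hk.1)
    rw [hsame k hk _ hnA (by rw [map_mul, map_mul, map_inv, hn, hme])]
    have hcz : n * (h * h) = (h * h) * n := by
      rcases hsqz h hh with e | e <;> rw [e]
      · rw [one_mul, mul_one]
      · rw [zC_comm]
    calc h * h = (h * h) * n * n⁻¹ := by group
      _ = n * (h * h) * n⁻¹ := by rw [hcz]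
      _ = _ := by group
  have hexp : ∀ h ∈ A, h * h = 1 := by
    by_contra hne
    push Not at hne
    obtain ⟨h, hh, hne⟩ := hne
    have hhQ : h ∉ Q := fun e => hne (hAQ h hh e)
    have hz : ∀ k ∈ A, k ∉ Q → k * k = zC z := fun k hk hkQ =>
      (hconst k hk h hh hkQ hhQ).trans ((hsqz h hh).resolve_left hne)
    obtain ⟨b, hb, hb1, hba⟩ : ∃ b, inA0 b ∧ b ≠ 1 ∧ b ≠ f h := by
      by_contra hh'
      push Not at hh'
      have := Nat.card_le_card_of_injective
        (fun g : ↥A0 => (decide ((g : Equiv.Perm W) = 1))) fun a b e => Subtype.ext (by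
          have e' := decide_eq_decide.1 e
          by_cases a1 : (a : Equiv.Perm W) = 1
          · rw [a1, e'.1 a1]
          · rw [hh' a a.2 a1, hh' b b.2 (fun e2 => a1 (e'.2 e2))])
      rw [card_A0] at this
      simp at this
    obtain ⟨c, hc, hc1, hca, hcb, hcab⟩ :
        ∃ c, inA0 c ∧ c ≠ 1 ∧ c ≠ f h ∧ c ≠ b ∧ c ≠ b * f h := by
      by_contra hh'
      push Not at hh'
      have hsub : (A0 : Set (Equiv.Perm W)) ⊆ ↑({1, f h, b, b * f h} : Finset (Equiv.Perm W)) := by
        intro g hg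
        simp only [Finset.coe_insert, Finset.coe_singleton, Set.mem_insert_iff, Set.mem_singleton_iff]
        by_contra hg'
        simp only [not_or] at hg'
        exact hg'.2.2.2 (hh' g hg hg'.1 hg'.2.1 hg'.2.2.1)
      have := Set.ncard_le_ncard hsub (Finset.finite_toSet _)
      rw [← Nat.card_coe_set_eq, Set.ncard_coe_finset] at this
      change Nat.card A0 ≤ _ at this
      rw [card_A0] at this
      have h4 : ({1, f h, b, b * f h} : Finset (Equiv.Perm W)).card ≤ 4 := Finset.card_le_four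
      omega
    obtain ⟨k, hk, rfl⟩ := hsurj b hb
    obtain ⟨l, hl, rfl⟩ := hsurj c hc
    have hcomm : ∀ x ∈ A, ∀ y ∈ A, x ∉ Q → y ∉ Q → x * y ∉ Q → y * x = x * y * zC z := by
      intro x hx y hy x1 y1 xy1
      have hxy := hz _ (A.mul_mem hx hy) xy1
      have ex := hz x hx x1
      have ey := hz y hy y1
      have hxi : x⁻¹ = x * zC z := inv_eq_of_mul_eq_one_right (by
        rw [← mul_assoc, ex, zC_sq hM])
      have hyi : y⁻¹ = zC z * y := inv_eq_of_mul_eq_one_left (by
        rw [mul_assoc, ey, zC_sq hM])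
      calc y * x = x⁻¹ * (x * y * (x * y)) * y⁻¹ := by group
        _ = x * zC z * zC z * (zC z * y) := by rw [hxy, hxi, hyi]
        _ = x * (zC z * y) := by rw [mul_assoc x, zC_sq hM, mul_one]
        _ = _ := by rw [zC_comm, mul_assoc]
    have hne1 : ∀ x : ↥(Subgroup.centralizer ({z} : Set G)), f x ≠ 1 → x ∉ Q := fun x hx e => hx ((fker x).2 e)
    have sq0 : ∀ g, inA0 g → ∀ g', g * g' = 1 → g' = g := fun g hg g' e => by
      rw [← mul_one g, ← e, ← mul_assoc, inA0_sq hg, one_mul]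
    have kQ := hne1 k hb1
    have lQ := hne1 l hc1
    have hkQ : h * k ∉ Q := hne1 _ (by
      rw [map_mul]; exact fun e => hba (sq0 _ hh.1 _ e))
    have hlQ : h * l ∉ Q := hne1 _ (by
      rw [map_mul]; exact fun e => hca (sq0 _ hh.1 _ e))
    have klQ : k * l ∉ Q := hne1 _ (by
      rw [map_mul]; exact fun e => hcb (sq0 _ hk.1 _ e))
    have hklQ : h * (k * l) ∉ Q := hne1 _ (by
      rw [map_mul, map_mul]
      intro e
      have e2 := sq0 _ hh.1 _ e
      refine hcab ?_
      rw [← e2, ← mul_assoc, inA0_sq hb, one_mul])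
    have e1 := hcomm h hh k hk hhQ kQ hkQ
    have e2 := hcomm h hh l hl hhQ lQ hlQ
    have e3 := hcomm h hh (k * l) (A.mul_mem hk hl) hhQ klQ hklQ
    have e4 : k * l * h = h * (k * l) := by
      calc k * l * h = k * (l * h) := mul_assoc ..
        _ = k * h * (l * zC z) := by rw [e2]; group
        _ = h * k * (zC z * l) * zC z := by rw [e1]; group
        _ = h * k * (l * zC z) * zC z := by rw [zC_comm]
        _ = h * (k * l) * (zC z * zC z) := by group
        _ = _ := by rw [zC_sq hM, mul_one]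
    rw [e4] at e3
    exact zC_ne hM (mul_eq_left.1 e3.symm)
  -- orders
  have hcardQ : Nat.card ↥(A ⊓ Q) = 2 ^ 7 := by
    let e : ↥(A ⊓ Q) ≃ {q : ↥Q // inB0 (pr q)} :=
      { toFun := fun h => ⟨⟨h.1, h.2.2⟩, (hQA _).1 h.2.1⟩
        invFun := fun q => ⟨q.1, (hQA _).2 q.2, q.1.2⟩
        left_inv := fun _ => rfl
        right_inv := fun _ => rfl }
    rw [Nat.card_congr e, card_subset hM, card_B0]; norm_num
  have hcardmap : Nat.card ↥(A.map (QuotientGroup.mk' Q)) = 16 := by
    rw [← Subgroup.card_map_of_injective (K := Subgroup.map (QuotientGroup.mk' Q) A) hM.act_inj,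
      Subgroup.map_map, ← card_A0]
    congr 2
    ext g
    refine ⟨fun ⟨h, hh, e⟩ => e ▸ hh.1, fun hg => ?_⟩
    obtain ⟨h, hh, rfl⟩ := hsurj g hg
    exact ⟨h, hh, rfl⟩
  have hcardA : Nat.card A = 2 ^ 11 := by
    rw [← ((QuotientGroup.mk' Q).comp A.subtype).ker.card_mul_index, Subgroup.index_ker,
      MonoidHom.range_comp, Subgroup.range_subtype, hcardmap]
    let e : ↥((QuotientGroup.mk' Q).comp A.subtype).ker ≃ ↥(A ⊓ Q) :=
      { toFun := fun h => ⟨h.1.1, h.1.2, (QuotientGroup.eq_one_iff _).1 h.2⟩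
        invFun := fun h => ⟨⟨h.1, h.2.1⟩, (QuotientGroup.eq_one_iff _).2 h.2.2⟩
        left_inv := fun _ => rfl
        right_inv := fun _ => rfl }
    rw [Nat.card_congr e, hcardQ]; norm_num
  refine ⟨A, fun h hh => ?_, hexp, hcardA, hcardQ, hcardmap, fun B hBT hB hcard => ?_⟩
  · rw [hTeq]; exact A0_le_PS hh.1
  -- uniqueness
  set S := B.map f with hS
  have hSel : IsElemAllowed S := by
    refine ⟨?_, ?_⟩
    · rintro _ ⟨b, hb, rfl⟩; rw [← map_mul, hB b hb, map_one]
    · rintro _ ⟨b, hb, rfl⟩ h1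
      obtain ⟨i, hi⟩ : f b ∈ PS := hT b (hBT hb)
      refine (exists_jP i (hi ▸ h1) (by rw [hi, ← map_mul, hB b hb, map_one]) ?_).imp
        fun a ha => hi ▸ ha
      simp only [allowedB, Bool.or_eq_true, Bool.not_eq_true']
      cases hl : linN.testBit i.val with
      | false => exact Or.inr rfl
      | true => exact Or.inl (hflag i (hi ▸ ⟨b, rfl⟩) hl)
  set Bq : Subgroup ↥Q := B.subgroupOf Q
  have hBq : Nat.card Bq ≤ 2 ^ 7 := hM.bound Bq fun q hq => Subtype.ext (hB _ hq)
  have hfix : ∀ q ∈ Bq, ∀ g ∈ S, g (pr q) = pr q := by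
    rintro q hq _ ⟨b, hb, rfl⟩
    refine hM.act_pr b q q ?_
    have h2 := hB _ (B.mul_mem hb hq)
    have e1 : b⁻¹ = b := inv_eq_of_mul_eq_one_right (hB b hb)
    have e2 : (q : ↥(Subgroup.centralizer ({z} : Set G)))⁻¹ = q := inv_eq_of_mul_eq_one_right (hB _ hq)
    have e3 : ((b * q : ↥(Subgroup.centralizer ({z} : Set G))))⁻¹ = b * q := inv_eq_of_mul_eq_one_right h2
    rw [mul_inv_rev, e1, e2] at e3
    rw [e1, ← e3, mul_assoc, hB b hb, mul_one]
  have hBcard : Nat.card B = Nat.card Bq * Nat.card S := by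
    rw [← (f.comp B.subtype).ker.card_mul_index, Subgroup.index_ker, MonoidHom.range_comp,
      Subgroup.range_subtype]
    congr 1
    exact Nat.card_congr
      { toFun := fun h => ⟨⟨h.1.1, (fker _).1 h.2⟩, h.1.2⟩
        invFun := fun h => ⟨⟨h.1.1, h.2⟩, (fker _).2 h.1.2⟩
        left_inv := fun _ => rfl
        right_inv := fun _ => rfl }
  rcases elem_bound hSel with h | ⟨hA0, hfixB⟩ | ⟨h32, L, hL, hLfix⟩
  · have hS8 : Nat.card S ≤ 8 := by
      have hp : IsPGroup 2 S := fun g => ⟨1, by rw [pow_one, sq]; exact Subtype.ext (hSel.sq g g.2)⟩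
      obtain ⟨k, hk⟩ := IsPGroup.iff_card.1 hp
      rw [hk] at h ⊢
      have : k < 4 := (Nat.pow_lt_pow_iff_right (by norm_num)).1 (show 2 ^ k < 2 ^ 4 by simpa using h)
      calc 2 ^ k ≤ 2 ^ 3 := Nat.pow_le_pow_right (by norm_num) (by omega)
        _ = 8 := by norm_num
    have := Nat.mul_le_mul hBq hS8
    omega
  · have hS16 : Nat.card S = 16 := by
      rw [← card_A0, show S = A0 from Subgroup.ext hA0]
    have hsub : Set.range (fun q : ↥Bq => (q : ↥Q)) ⊆ {q : ↥Q | inB0 (pr q)} := by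
      rintro _ ⟨q, rfl⟩; exact hfixB _ fun g hg => hfix q q.2 g hg
    have hfull : {q : ↥Q | inB0 (pr q)} ⊆ (Bq : Set ↥Q) := by
      refine (Set.eq_of_subset_of_ncard_le (fun q hq => hsub ⟨⟨q, hq⟩, rfl⟩) ?_).ge
      rw [← Nat.card_coe_set_eq, ← Nat.card_coe_set_eq]
      change Nat.card {q : ↥Q // inB0 (pr q)} ≤ Nat.card Bq
      rw [card_subset hM, card_B0]
      rw [hBcard, hS16] at hcard
      omega
    refine Subgroup.eq_of_le_of_card_ge (fun b hb => (memA b).2 ⟨(hA0 _).1 ⟨b, hb, rfl⟩, fun q hq => ?_⟩) ?_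
    · have hqB : (q : ↥(Subgroup.centralizer ({z} : Set G))) ∈ B := hfull hq
      have e1 : b⁻¹ = b := inv_eq_of_mul_eq_one_right (hB b hb)
      have e2 : (q : ↥(Subgroup.centralizer ({z} : Set G)))⁻¹ = q := inv_eq_of_mul_eq_one_right (hB _ hqB)
      have e3 : ((b * q : ↥(Subgroup.centralizer ({z} : Set G))))⁻¹ = b * q := inv_eq_of_mul_eq_one_right (hB _ (B.mul_mem hb hqB))
      rw [mul_inv_rev, e1, e2] at e3
      exact e3.symm
    · rw [hcardA]; exact hcard
  · exfalso
    have hle : Nat.card Bq ≤ 2 * L.length := by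
      have h1 : Nat.card Bq ≤ Nat.card {q : ↥Q // (pr q).val ∈ L} :=
        Nat.card_le_card_of_injective
          (fun q : ↥Bq => ⟨(q : ↥Q), hLfix _ fun g hg => hfix q q.2 g hg⟩)
          fun a b e => Subtype.ext (congrArg (fun x : {q : ↥Q // (pr q).val ∈ L} => x.1) e)
      rw [card_subset hM (fun v => v.val ∈ L)] at h1
      refine h1.trans (Nat.mul_le_mul_left 2 ?_)
      rw [Nat.card_eq_fintype_card, Fintype.card_subtype]
      refine (Finset.card_le_card_of_injOn (fun v => v.val) (t := L.toFinset) (fun v hv => ?_)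
        Fin.val_injective.injOn).trans (List.toFinset_card_le L)
      simp only [Finset.coe_filter, Finset.mem_univ, true_and] at hv
      simpa using hv
    have := Nat.mul_le_mul hle h32
    omega

end

end CfsgLib.LargeFischer28
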