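import Cfsg.Agent.LargeFischer28.Search

/-!
The leaves of the search, and the bound on elementary subgroups of allowed elements together with
their fixed vectors.
-/

set_option autoImplicit false
set_option maxRecDepth 100000

namespace CfsgLib.LargeFischer28

open CfsgLib.LargeFischer85

/-- The sums of subsets of a list of numbers. -/
def spanN : List ℕ → List ℕ
  | [] => [0]
  | e :: l => spanN l ++ (spanN l).map fun x => x ^^^ e

/-- The projection of a leaf. -/
def piN (gs Ls : List ℕ) (n : ℕ) : ℕ :=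
  n ^^^ appN (Ls.getD 0 0) 12 (appN (elsC (jN (gs.getD 0 0))) 12 n ^^^ n) ^^^
    appN (Ls.getD 1 0) 12 (appN (elsC (jN (gs.getD 1 0))) 12 n ^^^ n) ^^^
    appN (Ls.getD 2 0) 12 (appN (elsC (jN (gs.getD 3 0))) 12 n ^^^ n) ^^^
    appN (Ls.getD 3 0) 12 (appN (elsC (jN (gs.getD 7 0))) 12 n ^^^ n)

/-- The list of `A₀` as a set equals a given list. -/
def isA0B (l : List ℕ) : Bool := l.all (fun a => a0J.contains a) && a0J.all fun a => l.contains a

/-- The test of a leaf. -/
def leafB (x : (ℕ × ℕ × ℕ × ℕ) × List ℕ × List ℕ × List ℕ) : Bool :=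
  let l := x.2.1
  let sp := spanN x.2.2.2
  l.length == 15 && decide l.Nodup && l.all (fun a => decide (a < 107)) &&
    (sp.all fun u => sp.all fun v => sp.contains (u ^^^ v)) && sp.contains 0 &&
    ((List.range 12).all fun j => sp.contains (piN l x.2.2.1 (2 ^ j))) &&
    (decide (sp.length ≤ 8) || (isA0B l && x.2.2.2 == b0Basis)) &&
    (!(l.all fun a => flagN.testBit (jN a)) || (List.range 107).all fun e =>
      !flagN.testBit (jN e) || l.contains e || l.any fun y => prE y e == 0)

theorem c_leaf : leafData.all leafB = true := by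
  decide +kernel

theorem c_a0flag : (a0J.all fun a => decide (a < 107) && flagN.testBit (jN a) &&
    linN.testBit (jN a)) = true := by
  decide +kernel

theorem c_flaglin : ((List.range 512).all fun i => !flagN.testBit i || linN.testBit i) = true := by
  decide +kernel

/-- The elementary subgroup with the large fixed space. -/
def inA0 (g : Equiv.Perm W) : Prop := g = 1 ∨ ∃ a : Fin 107, a.val ∈ a0J ∧ g = jP a

/-- Its fixed space. -/
def inB0 (v : W) : Prop := v.val ∈ spanN b0Basis

theorem inA0_lin {g : Equiv.Perm W} (h : inA0 g) : g ∈ GL6 := by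
  rcases h with rfl | ⟨a, ha, rfl⟩
  · exact GL6.one_mem
  · have := c_a0flag
    simp only [List.all_eq_true, Bool.and_eq_true] at this
    exact (lin_iff (jF a)).1 (this a.val ha).2

theorem xor_mem_of_testBit {sp : List ℕ} (h0 : sp.contains 0)
    (hx : ∀ u ∈ sp, ∀ v ∈ sp, u ^^^ v ∈ sp) {F : ℕ → ℕ}
    (hF : ∀ a b, F (a ^^^ b) = F a ^^^ F b) (hb : ∀ j < 12, F (2 ^ j) ∈ sp) :
    ∀ k, k ≤ 12 → ∀ n, n < 2 ^ k → F n ∈ sp
  | 0, _, n, hn => by
    obtain rfl : n = 0 := by simpa using hn
    have h := hF 0 0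
    rw [Nat.xor_self, Nat.xor_self] at h
    rw [h]
    simpa [List.contains_iff_mem] using h0
  | k + 1, hk, n, hn => by
    rw [pow_succ] at hn
    rcases Nat.lt_or_ge n (2 ^ k) with h' | h'
    · exact xor_mem_of_testBit h0 hx hF hb k (by omega) n h'
    · obtain ⟨r, rfl⟩ := Nat.exists_eq_add_of_le h'
      have hr : r < 2 ^ k := by omega
      have e : 2 ^ k + r = 2 ^ k ^^^ r := by
        refine Nat.eq_of_testBit_eq fun i => ?_
        rw [Nat.testBit_xor, Nat.testBit_two_pow]
        rcases lt_trichotomy i k with h | rfl | h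
        · simp [Nat.testBit_two_pow_add_gt h r, (show k ≠ i by omega)]
        · simp [Nat.testBit_two_pow_add_eq, Nat.testBit_lt_two_pow hr]
        · have h2 : 2 ^ k + r < 2 ^ i := lt_of_lt_of_le (by rw [pow_succ]; omega)
            (Nat.pow_le_pow_right (by norm_num) (show k + 1 ≤ i from h))
          simp [Nat.testBit_lt_two_pow h2, (show k ≠ i by omega),
            Nat.testBit_lt_two_pow (lt_of_le_of_lt (Nat.le_add_left r _) h2)]
      rw [e, hF]
      exact hx _ (hb k (by omega)) _ (xor_mem_of_testBit h0 hx hF hb k (by omega) r hr)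

theorem piN_xor (gs Ls : List ℕ) (a b : ℕ) : piN gs Ls (a ^^^ b) = piN gs Ls a ^^^ piN gs Ls b := by
  simp only [piN, appN_xor]
  ac_rfl

/-- What a leaf says. -/
theorem leaf_spec {S : Subgroup (Equiv.Perm W)} (hS : IsElemAllowed S) (hcard : 16 ≤ Nat.card S) :
    ∃ (T : Subgroup (Equiv.Perm W)), T ≤ S ∧ Nat.card T = 16 ∧
      ((∃ L : List ℕ, L.length ≤ 8 ∧ ∀ v : W, (∀ g ∈ T, g v = v) → v.val ∈ L) ∨
        ((∀ g, g ∈ T ↔ inA0 g) ∧ ∀ v : W, (∀ g ∈ T, g v = v) → inB0 v)) ∧
      (T ≤ GL6 → ∀ u ∈ S, u ∈ GL6 → u ∈ T) := by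
  classical
  obtain ⟨l, hl, hleaf⟩ := search_complete hS hcard 0 4 0 [] rfl
    ⟨by simp, by simp, fun g h hg hh => by
      rcases hg with rfl | ⟨a, ha, -⟩
      · rwa [one_mul]
      · simp at ha⟩ (fun q _ _ => Nat.zero_le _) c_search
  simp only [List.any_eq_true, beq_iff_eq] at hleaf
  obtain ⟨x, hx, hxl⟩ := hleaf
  have := c_leaf
  simp only [List.all_eq_true] at this
  have hx' := this x hx
  simp only [leafB, Bool.and_eq_true, Bool.or_eq_true, beq_iff_eq, decide_eq_true_eq,
    List.all_eq_true, List.mem_range, List.contains_iff_mem, Bool.not_eq_true'] at hx'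
  obtain ⟨⟨⟨⟨⟨⟨⟨hlen, hnd⟩, -⟩, hclosed⟩, h0⟩, hpi⟩, hdim⟩, hmax⟩ := hx'
  rw [hxl] at hlen hnd
  rw [hxl] at hmax hdim hpi
  let T : Subgroup (Equiv.Perm W) :=
    { carrier := {g | span1 l g}
      one_mem' := Or.inl rfl
      mul_mem' := fun hg hh => hl.mul _ _ hg hh
      inv_mem' := fun {g} hg => by
        show span1 l g⁻¹
        rw [inv_eq_of_mul_eq_one_right (hS.sq g (hl.mem_of hg))]
        exact hg }
  have hT : ∀ g, g ∈ T ↔ span1 l g := fun g => Iff.rfl
  have hTS : T ≤ S := fun g hg => hl.mem_of hg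
  have hTc : Nat.card T = 16 := by
    have hnd' : l.Nodup := List.Nodup.of_map _ hnd
    have e : (T : Set (Equiv.Perm W)) = ↑(insert 1 (l.map jP).toFinset) := by
      ext g
      simp only [SetLike.mem_coe, hT, span1, Finset.coe_insert, Set.mem_insert_iff,
        List.coe_toFinset, Set.mem_setOf_eq, List.mem_map]
      exact or_congr_right ⟨fun ⟨a, h1, h2⟩ => ⟨a, h1, h2.symm⟩, fun ⟨a, h1, h2⟩ => ⟨a, h1, h2.symm⟩⟩
    rw [show Nat.card T = Nat.card (T : Set (Equiv.Perm W)) from rfl, Nat.card_coe_set_eq, e,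
      Set.ncard_coe_finset, Finset.card_insert_of_notMem, List.toFinset_card_of_nodup
        (hnd'.map jP_inj), List.length_map]
    · simpa using hlen
    · simp only [List.mem_toFinset, List.mem_map, not_exists, not_and]
      exact fun a _ h => jP_ne_one a h
  have hl15 : l.length = 15 := by simpa using hlen
  have hfix : ∀ v : W, (∀ g ∈ T, g v = v) → v.val ∈ spanN x.2.2.2 := by
    intro v hv
    have hin := xor_mem_of_testBit (by simpa [List.contains_iff_mem] using h0) hclosed
      (piN_xor (l.map Fin.val) x.2.2.1) hpi 12 le_rfl v.val (by simpa using v.isLt)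
    have hg : ∀ i, i < 15 → appN (elsC (jN ((l.map Fin.val).getD i 0))) 12 v.val = v.val := by
      intro i hi
      rw [List.getD_eq_getElem _ _ (by simpa [hl15] using hi), List.getElem_map]
      exact congrArg Fin.val (hv _ ((hT _).2 (Or.inr ⟨_, List.getElem_mem _, rfl⟩)))
    have h00 : ∀ c, appN c 12 0 = 0 := fun c => by
      have h := appN_xor c 12 0 0
      rwa [Nat.xor_self, Nat.xor_self] at h
    rw [piN, hg 0 (by norm_num), hg 1 (by norm_num), hg 3 (by norm_num), hg 7 (by norm_num)] at hin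
    simpa [h00] using hin
  refine ⟨T, hTS, hTc, ?_, ?_⟩
  · rcases hdim with h | ⟨hA, hB⟩
    · exact Or.inl ⟨_, h, hfix⟩
    · refine Or.inr ⟨fun g => (hT g).trans ?_, fun v hv => by
        have := hfix v hv
        rw [hB] at this
        exact this⟩
      simp only [isA0B, Bool.and_eq_true, List.all_eq_true, List.contains_iff_mem] at hA
      constructor
      · rintro (rfl | ⟨a, ha, rfl⟩)
        · exact Or.inl rfl
        · exact Or.inr ⟨a, hA.1 _ (List.mem_map.2 ⟨a, ha, rfl⟩), rfl⟩
      · rintro (rfl | ⟨a, ha, rfl⟩)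
        · exact Or.inl rfl
        · obtain ⟨b, hb, e⟩ := List.mem_map.1 (hA.2 _ ha)
          exact Or.inr ⟨b, hb, by rw [Fin.ext e]⟩
  · intro hTL u hu huL
    by_cases h1 : u = 1
    · exact h1 ▸ T.one_mem
    obtain ⟨e, rfl⟩ := hS.allowed u hu h1
    have hflag : ∀ a : Fin 107, jP a ∈ GL6 → flagN.testBit (jN a.val) = true := by
      intro a ha
      have := c_jN
      simp only [List.all_eq_true, List.mem_range, Bool.and_eq_true, allowedB, Bool.or_eq_true,
        Bool.not_eq_true'] at this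
      refine ((this a.val a.isLt).1.2).resolve_right ?_
      rw [show linN.testBit (jN a.val) = true from (lin_iff (jF a)).2 ha]
      simp
    rcases hmax with h | h
    · refine absurd h ?_
      simp only [List.all_eq_false, not_exists, not_and, List.mem_map, forall_exists_index, and_imp,
        forall_apply_eq_imp_iff₂]
      exact fun a ha => by simp [hflag a (hTL ((hT _).2 (Or.inr ⟨a, ha, rfl⟩)))]
    rcases h e.val e.isLt with (h | h) | h
    · rw [hflag e huL] at h; exact absurd h (by simp)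
    · obtain ⟨b, hb, he⟩ := List.mem_map.1 h
      exact (hT _).2 (Or.inr ⟨b, hb, by rw [Fin.ext he]⟩)
    · simp only [List.any_eq_true, List.mem_map, beq_iff_eq] at h
      obtain ⟨_, ⟨y, hy, rfl⟩, hy0⟩ := h
      by_cases hye : y = e
      · exact (hT _).2 (Or.inr ⟨y, hy, by rw [hye]⟩)
      · obtain ⟨q, -, hq⟩ := hS.prod (hl.mem y hy) hu hye
        omega

/-- The bound: small, or the subgroup `A₀`, or a small fixed space. -/
theorem elem_bound {S : Subgroup (Equiv.Perm W)} (hS : IsElemAllowed S) :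
    Nat.card S < 16 ∨ ((∀ g, g ∈ S ↔ inA0 g) ∧ ∀ v : W, (∀ g ∈ S, g v = v) → inB0 v) ∨
      (Nat.card S ≤ 32 ∧ ∃ L : List ℕ, L.length ≤ 8 ∧ ∀ v : W, (∀ g ∈ S, g v = v) → v.val ∈ L) := by
  classical
  rcases Nat.lt_or_ge (Nat.card S) 16 with h | h16
  · exact Or.inl h
  refine Or.inr ?_
  obtain ⟨T, hTS, hTc, hT, -⟩ := leaf_spec hS h16
  rcases (Nat.eq_or_lt_of_le h16) with h | hgt
  · obtain rfl : T = S := Subgroup.eq_of_le_of_card_ge hTS (by omega)
    rcases hT with hT | hT
    · exact Or.inr ⟨by omega, hT⟩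
    · exact Or.inl hT
  refine Or.inr ?_
  have hp : IsPGroup 2 S := fun g => ⟨1, by
    rw [pow_one, sq]; exact Subtype.ext (hS.sq g g.2)⟩
  obtain ⟨k, hk⟩ := (IsPGroup.iff_card).1 hp
  have h32 : 32 ≤ Nat.card S := by
    rw [hk] at hgt ⊢
    have : 4 < k := (Nat.pow_lt_pow_iff_right (by norm_num)).1 (show 2 ^ 4 < 2 ^ k by simpa using hgt)
    calc 32 = 2 ^ 5 := by norm_num
      _ ≤ 2 ^ k := Nat.pow_le_pow_right (by norm_num) this
  set S0 := S ⊓ GL6 with hS0
  have hS0e : IsElemAllowed S0 := hS.mono inf_le_left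
  by_cases hu : ∀ u ∈ S, u ∈ GL6
  · exfalso
    obtain ⟨T2, hT2, hT2c, -, hmax⟩ := leaf_spec hS h16
    have := Subgroup.card_le_of_le (show S ≤ T2 from fun g hg =>
      hmax (fun x hx => hu x (hT2 hx)) g hg (hu g hg))
    omega
  · push Not at hu
    obtain ⟨u, huS, huL⟩ := hu
    have hgood : ∀ g ∈ S, IsGood g := fun g hg => by
      by_cases h1 : g = 1
      · exact h1 ▸ isGood_one
      · obtain ⟨a, rfl⟩ := hS.allowed g hg h1
        exact elP_good _
    have hle : Nat.card S ≤ Nat.card S0 + Nat.card S0 := by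
      let F : ↥S → ↥S0 ⊕ ↥S0 := fun g =>
        if hg : (g : Equiv.Perm W) ∈ GL6 then Sum.inl ⟨g, g.2, hg⟩
        else Sum.inr ⟨g * u, S.mul_mem g.2 huS, mul_mem_GL6 (hgood _ g.2) (hgood _ huS) hg huL⟩
      have hF : Function.Injective F := fun a b e => by
        simp only [F] at e
        split at e <;> split at e
        · exact Subtype.ext (congrArg (fun x : ↥S0 => (x : Equiv.Perm W)) (Sum.inl.inj e))
        · cases e
        · cases e
        · exact Subtype.ext (mul_right_cancel
            (congrArg (fun x : ↥S0 => (x : Equiv.Perm W)) (Sum.inr.inj e)))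
      exact (Nat.card_le_card_of_injective F hF).trans_eq Nat.card_sum
    obtain ⟨T2, hT2, hT2c, -, hmax⟩ := leaf_spec hS0e (by omega)
    have hS0le := Subgroup.card_le_of_le (show S0 ≤ T2 from fun g hg =>
      hmax (fun x hx => (hT2 hx).2) g hg hg.2)
    refine ⟨by omega, ?_⟩
    have h2 : Nat.card (Subgroup.zpowers (⟨u, huS⟩ : ↥S)) = 2 ^ 1 := by
      rw [Nat.card_zpowers, pow_one]
      exact orderOf_eq_prime (by rw [sq]; exact Subtype.ext (hS.sq u huS))
        fun e => huL (by
          rw [show u = 1 from congrArg Subtype.val e]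
          exact GL6.one_mem)
    obtain ⟨K, hK, huK⟩ := Sylow.exists_subgroup_card_pow_prime_le 2 (n := 1) (m := 4)
      (by rw [hk]; exact Nat.pow_dvd_pow 2 (Nat.le_of_lt
        ((Nat.pow_lt_pow_iff_right (by norm_num)).1 (show 2 ^ 4 < 2 ^ k by rw [← hk]; simpa using hgt))))
      _ h2 (by norm_num)
    set T3 := K.map S.subtype
    have hT3 : T3 ≤ S := Subgroup.map_subtype_le _
    have hT3c : Nat.card T3 = 16 := by
      rw [Subgroup.card_map_of_injective S.subtype_injective, hK]; norm_num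
    obtain ⟨T4, hT4, hT4c, hcases, -⟩ := leaf_spec (hS.mono hT3) hT3c.ge
    obtain rfl : T4 = T3 := Subgroup.eq_of_le_of_card_ge hT4 (by omega)
    rcases hcases with ⟨L, hL, hfix⟩ | ⟨hA, -⟩
    · exact ⟨L, hL, fun v hv => hfix v fun g hg => hv g (hT3 hg)⟩
    · exact absurd (inA0_lin ((hA u).1 ⟨⟨u, huS⟩, huK (Subgroup.mem_zpowers _), rfl⟩)) huL

end CfsgLib.LargeFischer28
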