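import Cfsg.Agent.LargeFischer28.Leaves

/-!
Facts on the elementary subgroup of order 16 and its fixed space: transitivity by elements of odd
order, maximality as isotropic space, and dual vectors.
-/

set_option autoImplicit false
set_option maxRecDepth 100000

namespace CfsgLib.LargeFischer28

open CfsgLib.LargeFischer85

/-- The `i`-th basis number of the fixed space. -/
def bv (i : ℕ) : W := ⟨b0Basis.getD i 0 % 4096, Nat.mod_lt _ (by norm_num)⟩

/-- The weight of a number. -/
def wtB (u : ℕ) : ℕ := wt ⟨u % 4096, Nat.mod_lt _ (by norm_num)⟩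

theorem c_b0 : ((spanN b0Basis).all fun u => decide (u < 4096) &&
      ((spanN b0Basis).all fun v => (spanN b0Basis).contains (u ^^^ v) &&
        decide ((wtB (u ^^^ v) + wtB u + wtB v) % 2 = 0)) &&
      decide (wtB u % 2 = 0) && (a0J.all fun a => appN (elsC (jN a)) 12 u == u)) &&
    decide (spanN b0Basis).Nodup && (spanN b0Basis).length == 64 &&
    ((List.range 6).all fun i => (spanN b0Basis).contains (b0Basis.getD i 0)) = true := by
  decide +kernel

theorem b0_spec {u : W} (hu : inB0 u) : sing u ∧ (∀ a, inA0 a → a u = u) ∧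
    (∀ v : W, inB0 v → orth u v ∧ inB0 (vadd u v)) := by
  have h := c_b0
  simp only [Bool.and_eq_true, List.all_eq_true, List.contains_iff_mem, decide_eq_true_eq,
    beq_iff_eq] at h
  obtain ⟨⟨⟨⟨-, hp⟩, hs⟩, hf⟩⟩ := And.intro (h.1.1.1 u.val hu) trivial
  have hu' : (⟨u.val % 4096, Nat.mod_lt _ (by norm_num)⟩ : W) = u := Fin.ext (Nat.mod_eq_of_lt u.isLt)
  refine ⟨?_, ?_, fun v hv => ⟨?_, ?_⟩⟩
  · simpa [sing, wtB, hu'] using hs
  · rintro _ (rfl | ⟨a, ha, rfl⟩)
    · rfl
    · exact Fin.ext (hf a.val ha)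
  · have hv' : (⟨v.val % 4096, Nat.mod_lt _ (by norm_num)⟩ : W) = v :=
      Fin.ext (Nat.mod_eq_of_lt v.isLt)
    have := (hp v.val hv).2
    simpa [orth, wtB, hu', hv', vadd] using this
  · show (vadd u v).val ∈ _
    rw [vadd_val]
    exact (hp v.val hv).1

theorem inB0_zero : inB0 0 := by
  show (0 : ℕ) ∈ spanN b0Basis
  decide +kernel

theorem inB0_bv (i : Fin 6) : inB0 (bv i.val) := by
  revert i
  unfold inB0
  decide +kernel

theorem card_B0 : Nat.card {v : W // inB0 v} = 64 := by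
  classical
  have h := c_b0
  simp only [Bool.and_eq_true, List.all_eq_true, List.contains_iff_mem, decide_eq_true_eq,
    beq_iff_eq] at h
  obtain ⟨⟨⟨hall, hnd⟩, hlen⟩, -⟩ := h
  rw [Nat.card_eq_fintype_card, Fintype.card_subtype, ← hlen, ← List.toFinset_card_of_nodup hnd,
    ← Finset.card_map Fin.valEmbedding]
  congr 1
  ext n
  simp only [Finset.mem_map, List.mem_toFinset, Fin.valEmbedding_apply]
  refine ⟨fun ⟨a, h1, h2⟩ => ?_, fun h1 => ⟨⟨n, (hall n h1).1.1.1⟩, ?_, rfl⟩⟩
  · have h3 : inB0 a := by simpa using h1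
    exact h2 ▸ h3
  · exact Finset.mem_filter.2 ⟨Finset.mem_univ _, h1⟩

theorem c_iso : chk (fun n => if h : n < 4096 then
    !((List.range 6).all fun i => decide (orth (bv i) ⟨n, h⟩)) || (spanN b0Basis).contains n
    else true) 12 0 = true := by
  decide +kernel

/-- The fixed space is maximal isotropic. -/
theorem inB0_of_orth {v : W} (h : ∀ i : Fin 6, orth (bv i.val) v) : inB0 v := by
  have := chk_spec _ 12 0 c_iso v.val (Nat.zero_le _) (by simpa using v.isLt)
  simp only [v.isLt, dif_pos, Bool.or_eq_true, Bool.not_eq_true', List.all_eq_false,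
    List.mem_range, decide_eq_true_eq, List.contains_iff_mem] at this
  rcases this with ⟨i, hi, hne⟩ | this
  · exact absurd (h ⟨i, hi⟩) hne
  · exact this

theorem c_wit : ((List.range 64).all fun p => (List.range 6).all fun i =>
    decide (witData.getD p 0 < 4096) &&
      (decide (orth (bv i) ⟨witData.getD p 0 % 4096, Nat.mod_lt _ (by norm_num)⟩) != p.testBit i)) =
      true := by
  decide +kernel

/-- Dual vectors. -/
theorem exists_dual (f : Fin 6 → Bool) : ∃ v : W, ∀ i, orth (bv i.val) v ↔ f i = true := by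
  let g : ℕ → Bool := fun i => if h : i < 6 then !f ⟨i, h⟩ else false
  obtain ⟨p, hp, hpf⟩ : ∃ p < 64, ∀ i : Fin 6, p.testBit i.val = !f i := by
    revert f
    decide +kernel
  have := c_wit
  simp only [List.all_eq_true, List.mem_range, Bool.and_eq_true, bne_iff_ne] at this
  refine ⟨⟨witData.getD p 0 % 4096, Nat.mod_lt _ (by norm_num)⟩, fun i => ?_⟩
  have h := (this p hp i.val i.isLt).2
  rw [hpf] at h
  revert h
  cases f i <;> simp

/-- Elements of odd order permuting the elementary subgroup. -/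
def msB (x : ℕ × ℕ × ℕ × List ℕ) : Bool :=
  glB x.1 x.2.1 && x.2.2.1 % 2 == 1 &&
    ((List.range 12).all fun j => Nat.iterate (appN x.1 12) x.2.2.1 (2 ^ j) == 2 ^ j) &&
    ((spanN b0Basis).all fun u => (spanN b0Basis).contains (appN x.1 12 u))

theorem c_ms : msData.all msB = true := by
  decide +kernel

/-- The reach of a list of edges. -/
def reachB : List (ℕ × ℕ × ℕ) → List ℕ → List ℕ
  | [], acc => acc
  | e :: l, acc => if acc.contains e.2.2 then reachB l (e.1 :: acc) else reachB l acc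

theorem c_tree15 : (let r := reachB a0Tree [0]
    a0J.length == 15 && ((List.range 15).all fun i => r.contains i) && a0Tree.all fun e =>
      decide (e.1 < 15) && decide (e.2.1 < msData.length) && decide (e.2.2 < 15) &&
      ((List.range 12).all fun j =>
        let m := (msData.getD e.2.1 (0, 0, 0, [])).1
        appN m 12 (col (elsC (jN (a0J.getD e.2.2 0))) j) ==
          appN (elsC (jN (a0J.getD e.1 0))) 12 (col m j))) = true := by
  decide +kernel

/-- A good linear map lying in all subgroups with all squares and stabilising the fixed space. -/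
structure IsMover (m : Equiv.Perm W) : Prop where
  mem : m ∈ GL6
  sq : ∀ M : Subgroup (Equiv.Perm W), (∀ g ∈ GL6, g * g ∈ M) → m ∈ M
  stab : ∀ v, inB0 (m v) ↔ inB0 v

theorem IsMover.mul {a b : Equiv.Perm W} (ha : IsMover a) (hb : IsMover b) : IsMover (a * b) :=
  ⟨GL6.mul_mem ha.mem hb.mem, fun M hM => M.mul_mem (ha.sq M hM) (hb.sq M hM),
    fun v => (ha.stab _).trans (hb.stab v)⟩

theorem IsMover.inv {a : Equiv.Perm W} (ha : IsMover a) : IsMover a⁻¹ :=
  ⟨GL6.inv_mem ha.mem, fun M hM => M.inv_mem (ha.sq M hM), fun v => by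
    rw [← ha.stab (a⁻¹ v)]; simp⟩

theorem stab_of_mapsTo {m : Equiv.Perm W} (h : ∀ v, inB0 v → inB0 (m v)) (v : W) :
    inB0 (m v) ↔ inB0 v := by
  refine ⟨fun hv => ?_, h v⟩
  have hb : Function.Bijective fun u : {v : W // inB0 v} => (⟨m u, h u u.2⟩ : {v : W // inB0 v}) :=
    Finite.injective_iff_bijective.1 fun a b e => Subtype.ext (m.injective (congrArg Subtype.val e))
  obtain ⟨u, hu⟩ := hb.2 ⟨m v, hv⟩
  exact m.injective (congrArg Subtype.val hu) ▸ u.2

theorem isMover_om : IsMover omP := by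
  refine ⟨omP_mem, fun M hM => ?_, stab_of_mapsTo fun v hv => ?_⟩
  · have : omP = omP ^ 2 * omP ^ 2 := by
      rw [← pow_add, show 2 + 2 = 3 + 1 from rfl, pow_succ, omP_cube, one_mul]
    rw [this]
    exact hM _ (GL6.pow_mem omP_mem 2)
  · have h : ((spanN b0Basis).all fun u => (spanN b0Basis).contains
        (om ⟨u % 4096, Nat.mod_lt _ (by norm_num)⟩).val) = true := by decide +kernel
    simp only [List.all_eq_true, List.contains_iff_mem] at h
    have := h v.val hv
    rwa [show (⟨v.val % 4096, Nat.mod_lt _ (by norm_num)⟩ : W) = v from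
      Fin.ext (Nat.mod_eq_of_lt v.isLt)] at this

theorem iterate_pow {g : Equiv.Perm W} {c : ℕ} (h : ⇑g = app c) :
    ∀ (o : ℕ) (n : W), ((g ^ o) n).val = (appN c 12)^[o] n.val
  | 0, _ => rfl
  | o + 1, n => by
    rw [pow_succ, Equiv.Perm.mul_apply, iterate_pow h o, Function.iterate_succ_apply, h]
    rfl

theorem exists_edge {e : ℕ × ℕ × ℕ} (he : e ∈ a0Tree) : ∃ m, IsMover m ∧
    ∀ (hx : a0J.getD e.2.2 0 < 107) (hy : a0J.getD e.1 0 < 107),
      m * jP ⟨_, hx⟩ * m⁻¹ = jP ⟨_, hy⟩ := by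
  have ht := c_tree15
  simp only [Bool.and_eq_true, List.all_eq_true, decide_eq_true_eq, beq_iff_eq,
    List.mem_range] at ht
  obtain ⟨⟨⟨-, hk⟩, -⟩, hconj⟩ := ht.2 e he
  have hmem : msData.getD e.2.1 (0, 0, 0, []) ∈ msData := by
    rw [List.getD_eq_getElem _ _ hk]; exact List.getElem_mem _
  have hm := c_ms
  simp only [List.all_eq_true] at hm
  have hx := hm _ hmem
  simp only [msB, Bool.and_eq_true, beq_iff_eq, List.all_eq_true, List.mem_range,
    List.contains_iff_mem] at hx
  obtain ⟨⟨⟨hgl, hodd⟩, hord⟩, hst⟩ := hx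
  obtain ⟨m, hm6, hme⟩ := exists_GL6 hgl
  set o := (msData.getD e.2.1 (0, 0, 0, [])).2.2.1
  have hpow : m ^ o = 1 := Equiv.ext fun n => by
    refine congrFun (isAdd_ext (GL6.pow_mem hm6 o).1.add isAdd_id fun j => Fin.ext ?_) n
    rw [iterate_pow hme]
    exact hord j.val j.isLt
  refine ⟨m, ⟨hm6, fun M hM => ?_, stab_of_mapsTo fun v hv => by
    rw [hme]; exact hst v.val hv⟩, fun hx hy => ?_⟩
  · have : m = m ^ ((o + 1) / 2) * m ^ ((o + 1) / 2) := by
      rw [← pow_add, show (o + 1) / 2 + (o + 1) / 2 = o + 1 by omega, pow_succ, hpow, one_mul]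
    rw [this]
    exact hM _ (GL6.pow_mem hm6 _)
  · rw [mul_inv_eq_iff_eq_mul]
    refine Equiv.ext fun n => ?_
    simp only [Equiv.Perm.mul_apply, hme, jP, elP_apply, jF]
    refine congrFun (isAdd_ext (isAdd_comp (isAdd_app _) (isAdd_app _))
      (isAdd_comp (isAdd_app _) (isAdd_app _)) fun j => Fin.ext ?_) n
    show appN _ 12 (app _ (bas j)).val = appN _ 12 (app _ (bas j)).val
    rw [app_bas, app_bas]
    exact hconj j.val j.isLt

theorem getD_a0J_lt (i : ℕ) : a0J.getD i 0 < 107 := by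
  by_cases h : i < a0J.length
  · rw [List.getD_eq_getElem _ _ h]
    have := c_a0flag
    simp only [List.all_eq_true, Bool.and_eq_true, decide_eq_true_eq] at this
    exact (this _ (List.getElem_mem h)).1.1
  · rw [List.getD_eq_default _ _ (Nat.le_of_not_lt h)]
    norm_num

theorem exists_mover_from_base : ∀ (l : List (ℕ × ℕ × ℕ)) (acc : List ℕ), (∀ e ∈ l, e ∈ a0Tree) →
    (∀ i ∈ acc, ∃ m, IsMover m ∧ ∀ (h0 : a0J.getD 0 0 < 107) (hi : a0J.getD i 0 < 107),
      m * jP ⟨_, h0⟩ * m⁻¹ = jP ⟨_, hi⟩) →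
    ∀ i ∈ reachB l acc, ∃ m, IsMover m ∧ ∀ (h0 : a0J.getD 0 0 < 107) (hi : a0J.getD i 0 < 107),
      m * jP ⟨_, h0⟩ * m⁻¹ = jP ⟨_, hi⟩
  | [], acc, _, hacc, i, hi => hacc i hi
  | e :: l, acc, hl, hacc, i, hi => by
    simp only [reachB] at hi
    have hl' : ∀ e ∈ l, e ∈ a0Tree := fun e he => hl e (List.mem_cons_of_mem _ he)
    split at hi
    · rename_i hc
      refine exists_mover_from_base l _ hl' (fun q hq => ?_) i hi
      rcases List.mem_cons.1 hq with rfl | hq
      · obtain ⟨m, hm, hme⟩ := exists_edge (hl e (List.mem_cons_self ..))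
        obtain ⟨n, hn, hne⟩ := hacc e.2.2 (by simpa [List.contains_iff_mem] using hc)
        refine ⟨m * n, hm.mul hn, fun h0 hy => ?_⟩
        have h2 : a0J.getD e.2.2 0 < 107 := getD_a0J_lt _
        rw [← hme h2 hy, ← hne h0 h2]
        group
      · exact hacc q hq
    · exact exists_mover_from_base l _ hl' hacc i hi

/-- Transitivity on the involutions of `A₀`. -/
theorem exists_mover {a b : Equiv.Perm W} (ha : inA0 a) (hb : inA0 b) (ha1 : a ≠ 1) (hb1 : b ≠ 1) :
    ∃ m, IsMover m ∧ m * a * m⁻¹ = b := by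
  have ht := c_tree15
  simp only [Bool.and_eq_true, List.all_eq_true, beq_iff_eq, List.mem_range,
    List.contains_iff_mem] at ht
  obtain ⟨⟨hlen, hall⟩, -⟩ := ht
  have h0 : a0J.getD 0 0 < 107 := getD_a0J_lt 0
  have key : ∀ g, inA0 g → g ≠ 1 → ∃ m, IsMover m ∧ m * jP ⟨_, h0⟩ * m⁻¹ = g := by
    rintro g (rfl | ⟨q, hq, rfl⟩) hg
    · exact absurd rfl hg
    · obtain ⟨i, hi, hiq⟩ := List.getElem_of_mem hq
      obtain ⟨m, hm, hme⟩ := exists_mover_from_base a0Tree [0] (fun _ h => h) (fun i hi => by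
        rw [List.mem_singleton] at hi
        subst hi
        exact ⟨1, ⟨GL6.one_mem, fun M _ => M.one_mem, fun _ => Iff.rfl⟩, fun _ _ => by group⟩)
        i (hall i (hlen ▸ hi))
      have he : a0J.getD i 0 = q.val := by rw [List.getD_eq_getElem _ _ hi, hiq]
      refine ⟨m, hm, (hme h0 (he ▸ q.isLt)).trans (congrArg jP (Fin.ext he))⟩
  obtain ⟨m, hm, rfl⟩ := key a ha ha1
  obtain ⟨n, hn, rfl⟩ := key b hb hb1
  exact ⟨n * m⁻¹, hn.mul hm.inv, by group⟩

end CfsgLib.LargeFischer28
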