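import Cfsg.Agent.LargeFischer28.Split

/-!
The search through elementary subgroups of order 16 of the allowed part of the Sylow subgroup:
one of them fixes 64 vectors, every other one at most 8.
-/

set_option autoImplicit false
set_option maxRecDepth 100000

namespace CfsgLib.LargeFischer28

open CfsgLib.LargeFischer85

/-- The index of the `a`-th allowed involution. -/
def jN (a : ℕ) : ℕ := getP jIdx 12 a

/-- The position, plus one, of an element among the allowed involutions. -/
def posJ (i : ℕ) : ℕ := getP posN 8 i

/-- The product, plus one, of two compatible allowed involutions. -/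
def prE (a b : ℕ) : ℕ := getP prN 8 (107 * a + b)

/-- Allowed elements: flagged or antilinear. -/
def allowedB (i : ℕ) : Bool := flagN.testBit i || !linN.testBit i

theorem c_pos : ((List.range 512).all fun i =>
    if i != 0 && mulN i i == 0 && allowedB i then
      decide (0 < posJ i) && decide (posJ i ≤ 107) && jN (posJ i - 1) == i else true) = true := by
  decide +kernel

theorem c_jN : ((List.range 107).all fun a => decide (jN a < 512) && posJ (jN a) == a + 1 &&
    allowedB (jN a) && jN a != 0) = true := by
  decide +kernel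

theorem c_pr : ((List.range 107).all fun a => (List.range 107).all fun b =>
    prE a b == if mulN (jN a) (jN b) == mulN (jN b) (jN a) then posJ (mulN (jN a) (jN b)) else 0) =
      true := by
  decide +kernel

theorem jN_lt (a : Fin 107) : jN a.val < 512 := by
  have := c_jN
  simp only [List.all_eq_true, List.mem_range, Bool.and_eq_true, decide_eq_true_eq] at this
  exact (this a.val a.isLt).1.1.1

theorem posJ_jN (a : Fin 107) : posJ (jN a.val) = a.val + 1 := by
  have := c_jN
  simp only [List.all_eq_true, List.mem_range, Bool.and_eq_true, beq_iff_eq] at this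
  exact (this a.val a.isLt).1.1.2

/-- The `a`-th allowed involution as an element index. -/
def jF (a : Fin 107) : Fin 512 := ⟨jN a.val, jN_lt a⟩

/-- The `a`-th allowed involution. -/
def jP (a : Fin 107) : Equiv.Perm W := elP (jF a)

theorem jF_inj : Function.Injective jF := fun a b h => by
  have ha := posJ_jN a
  have hb := posJ_jN b
  have : jN a.val = jN b.val := congrArg Fin.val h
  rw [this] at ha
  exact Fin.ext (by omega)

theorem jP_inj : Function.Injective jP := elP_injective.comp jF_inj

theorem jP_ne_one (a : Fin 107) : jP a ≠ 1 := by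
  intro h
  have := c_jN
  simp only [List.all_eq_true, List.mem_range, Bool.and_eq_true, bne_iff_ne] at this
  rw [← elP_zero] at h
  exact (this a.val a.isLt).2 (congrArg Fin.val (elP_injective h))

/-- Every allowed involution is on the list. -/
theorem exists_jP (i : Fin 512) (h1 : elP i ≠ 1) (h2 : elP i * elP i = 1)
    (h3 : allowedB i.val = true) : ∃ a, elP i = jP a := by
  have := c_pos
  simp only [List.all_eq_true, List.mem_range] at this
  have hi := this i.val i.isLt
  have h0 : i.val ≠ 0 := fun e => h1 (by rw [show i = 0 from Fin.ext e, elP_zero])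
  have hm : mulN i.val i.val = 0 := congrArg Fin.val (mulF_eq (h2.trans elP_zero.symm))
  rw [if_pos (by simp [h0, hm, h3])] at hi
  simp only [Bool.and_eq_true, decide_eq_true_eq, beq_iff_eq] at hi
  exact ⟨⟨posJ i.val - 1, by omega⟩, congrArg elP (Fin.ext hi.2.symm)⟩

/-- An elementary set of allowed elements. -/
structure IsElemAllowed (S : Subgroup (Equiv.Perm W)) : Prop where
  sq : ∀ g ∈ S, g * g = 1
  allowed : ∀ g ∈ S, g ≠ 1 → ∃ a, g = jP a

theorem IsElemAllowed.comm {S : Subgroup (Equiv.Perm W)} (hS : IsElemAllowed S) {g h : Equiv.Perm W}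
    (hg : g ∈ S) (hh : h ∈ S) : g * h = h * g := by
  have e := hS.sq _ (S.mul_mem hg hh)
  rw [mul_eq_one_iff_eq_inv, mul_inv_rev] at e
  rw [e, inv_eq_of_mul_eq_one_right (hS.sq g hg), inv_eq_of_mul_eq_one_right (hS.sq h hh)]

theorem IsElemAllowed.mono {S T : Subgroup (Equiv.Perm W)} (hS : IsElemAllowed S) (h : T ≤ S) :
    IsElemAllowed T :=
  ⟨fun g hg => hS.sq g (h hg), fun g hg => hS.allowed g (h hg)⟩

theorem IsElemAllowed.prod {S : Subgroup (Equiv.Perm W)} (hS : IsElemAllowed S) {a b : Fin 107}
    (ha : jP a ∈ S) (hb : jP b ∈ S) (hab : a ≠ b) :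
    ∃ q, jP q = jP a * jP b ∧ prE a.val b.val = q.val + 1 := by
  have hne : jP a * jP b ≠ 1 := fun e => hab (jP_inj (by
    have := hS.sq _ hb
    exact mul_right_cancel (e.trans this.symm)))
  obtain ⟨q, hq⟩ := hS.allowed _ (S.mul_mem ha hb) hne
  refine ⟨q, hq.symm, ?_⟩
  have h1 : mulN (jN a.val) (jN b.val) = jN q.val := congrArg Fin.val (mulF_eq hq)
  have h2 : mulN (jN b.val) (jN a.val) = jN q.val :=
    congrArg Fin.val (mulF_eq ((hS.comm hb ha).trans hq))
  have := c_pr
  simp only [List.all_eq_true, List.mem_range, beq_iff_eq] at this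
  rw [this a.val a.isLt b.val b.isLt, h1, h2, if_pos rfl, posJ_jN]

/-- The search. -/
def search : ℕ → List ℕ → ℕ → Bool
  | 0, l, _ => leafData.any fun x => x.2.1 == l
  | k + 1, l, lo => (List.range 107).all fun x =>
      if decide (lo ≤ x) && l.all (fun y => decide (x + 1 < prE y x)) then
        search k (l ++ [x] ++ l.map fun y => prE y x - 1) (x + 1)
      else true

theorem c_search : search 4 [] 0 = true := by
  decide +kernel

/-- The group elements of a list of indices, with the identity. -/
def span1 (l : List (Fin 107)) (g : Equiv.Perm W) : Prop := g = 1 ∨ ∃ a ∈ l, g = jP a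

/-- The invariant of the search. -/
structure IsSpan (S : Subgroup (Equiv.Perm W)) (k : ℕ) (l : List (Fin 107)) : Prop where
  mem : ∀ a ∈ l, jP a ∈ S
  len : l.length + 1 = 2 ^ k
  mul : ∀ g h, span1 l g → span1 l h → span1 l (g * h)

theorem IsSpan.mem_of {S : Subgroup (Equiv.Perm W)} {k : ℕ} {l : List (Fin 107)}
    (hl : IsSpan S k l) {g : Equiv.Perm W} (hg : span1 l g) : g ∈ S := by
  rcases hg with rfl | ⟨a, ha, rfl⟩
  · exact S.one_mem
  · exact hl.mem a ha

theorem search_complete {S : Subgroup (Equiv.Perm W)} (hS : IsElemAllowed S)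
    (hcard : 16 ≤ Nat.card S) : ∀ k d lo l, k + d = 4 → IsSpan S k l →
      (∀ q, jP q ∈ S → q ∉ l → lo ≤ q.val) → search d (l.map Fin.val) lo = true →
      ∃ l', IsSpan S 4 l' ∧ (leafData.any fun x => x.2.1 == l'.map Fin.val) = true
  | k, 0, lo, l, hk, hl, _, hs => ⟨l, by simpa [show k = 4 by omega] using hl, hs⟩
  | k, d + 1, lo, l, hk, hl, hlo, hs => by
    classical
    have hlen : l.length + 1 < 16 := by
      rw [hl.len]
      calc 2 ^ k ≤ 2 ^ 3 := Nat.pow_le_pow_right (by norm_num) (by omega)
        _ < 16 := by norm_num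
    have hex : ∃ q, jP q ∈ S ∧ q ∉ l := by
      by_contra h
      push Not at h
      have hsub : (S : Set (Equiv.Perm W)) ⊆ ↑(insert 1 (l.map jP).toFinset) := fun g hg => by
        by_cases h1 : g = 1
        · simp [h1]
        · obtain ⟨a, rfl⟩ := hS.allowed g hg h1
          simp [List.mem_map, h a hg]
          exact Or.inr ⟨a, h a hg, rfl⟩
      have hb := Set.ncard_le_ncard hsub (Finset.finite_toSet _)
      rw [Set.ncard_coe_finset, ← Nat.card_coe_set_eq] at hb
      have := (hcard.trans hb).trans ((Finset.card_insert_le _ _).trans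
        (Nat.add_le_add_right (List.toFinset_card_le _) 1))
      rw [List.length_map] at this
      omega
    set I := Finset.univ.filter fun q => jP q ∈ S ∧ q ∉ l with hI
    have hne : I.Nonempty := by obtain ⟨q, hq⟩ := hex; exact ⟨q, by simp [hI, hq]⟩
    set x := I.min' hne with hxdef
    obtain ⟨hxS, hxl⟩ : jP x ∈ S ∧ x ∉ l := by
      have := I.min'_mem hne
      simpa [hI] using this
    have hmin : ∀ q, jP q ∈ S → q ∉ l → x.val ≤ q.val := fun q h1 h2 =>
      I.min'_le q (by simp [hI, h1, h2])
    have hnot : ¬ span1 l (jP x) := by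
      rintro (h | ⟨a, ha, h⟩)
      · exact jP_ne_one x h
      · exact hxl (jP_inj h ▸ ha)
    have hstep : ∀ y : Fin 107, y ∈ l →
        ∃ q, jP q = jP y * jP x ∧ prE y.val x.val = q.val + 1 ∧ q ∉ l ∧ x.val < q.val := by
      intro y hy
      obtain ⟨q, hq, he⟩ := hS.prod (hl.mem y hy) hxS (fun e => hxl (e ▸ hy))
      have hql : q ∉ l := fun hql => by
        have := hl.mul _ _ (Or.inr ⟨y, hy, rfl⟩) (Or.inr ⟨q, hql, rfl⟩)
        rw [hq, ← mul_assoc, hS.sq _ (hl.mem y hy), one_mul] at this
        exact hnot this
      refine ⟨q, hq, he, hql, lt_of_le_of_ne (hmin q (hq ▸ S.mul_mem (hl.mem y hy) hxS) hql) ?_⟩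
      intro e
      rw [← Fin.ext e] at hq
      exact jP_ne_one y (mul_right_cancel ((one_mul (jP x)).trans hq)).symm
    let qf : Fin 107 → Fin 107 := fun y =>
      if h : y ∈ l then (hstep y h).choose else x
    have hqf : ∀ y ∈ l, jP (qf y) = jP y * jP x ∧ prE y.val x.val = (qf y).val + 1 ∧
        x.val < (qf y).val := fun y hy => by
      simp only [qf, dif_pos hy]
      obtain ⟨a, b, -, c⟩ := (hstep y hy).choose_spec
      exact ⟨a, b, c⟩
    set l' := l ++ [x] ++ l.map qf with hl'
    have hsp : ∀ g, span1 l' g ↔ span1 l g ∨ ∃ u, span1 l u ∧ g = u * jP x := by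
      intro g
      constructor
      · rintro (rfl | ⟨a, ha, rfl⟩)
        · exact Or.inl (Or.inl rfl)
        · simp only [hl', List.mem_append, List.mem_singleton, List.mem_map] at ha
          rcases ha with (ha | rfl) | ⟨y, hy, rfl⟩
          · exact Or.inl (Or.inr ⟨a, ha, rfl⟩)
          · exact Or.inr ⟨1, Or.inl rfl, (one_mul _).symm⟩
          · exact Or.inr ⟨jP y, Or.inr ⟨y, hy, rfl⟩, (hqf y hy).1⟩
      · rintro ((rfl | ⟨a, ha, rfl⟩) | ⟨u, rfl | ⟨y, hy, rfl⟩, rfl⟩)
        · exact Or.inl rfl
        · exact Or.inr ⟨a, by simp [hl', ha], rfl⟩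
        · exact Or.inr ⟨x, by simp [hl'], one_mul _⟩
        · exact Or.inr ⟨qf y, by simp only [hl', List.mem_append, List.mem_map]; exact Or.inr ⟨y, hy, rfl⟩,
            (hqf y hy).1.symm⟩
    have hl2 : IsSpan S (k + 1) l' :=
      { mem := fun a ha => by
          simp only [hl', List.mem_append, List.mem_singleton, List.mem_map] at ha
          rcases ha with (ha | rfl) | ⟨y, hy, rfl⟩
          · exact hl.mem a ha
          · exact hxS
          · exact (hqf y hy).1 ▸ S.mul_mem (hl.mem y hy) hxS
        len := by
          simp only [hl', List.length_append, List.length_singleton, List.length_map]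
          rw [pow_succ, ← hl.len]; omega
        mul := fun g h hg hh => by
          rw [hsp] at hg hh ⊢
          rcases hg with hg | ⟨u, hu, rfl⟩ <;> rcases hh with hh | ⟨v, hv, rfl⟩
          · exact Or.inl (hl.mul g h hg hh)
          · exact Or.inr ⟨g * v, hl.mul g v hg hv, (mul_assoc _ _ _).symm⟩
          · exact Or.inr ⟨u * h, hl.mul u h hu hh, by
              rw [mul_assoc, hS.comm hxS (hl.mem_of hh), ← mul_assoc]⟩
          · refine Or.inl ?_
            rw [mul_assoc, ← mul_assoc (jP x), hS.comm hxS (hl.mem_of hv), mul_assoc v,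
              hS.sq _ hxS, mul_one]
            exact hl.mul u v hu hv }
    refine search_complete hS hcard (k + 1) d (x.val + 1) l' (by omega) hl2 ?_ ?_
    · intro q hq hql
      simp only [hl', List.mem_append, List.mem_singleton, not_or] at hql
      exact Nat.succ_le_of_lt (lt_of_le_of_ne (hmin q hq hql.1.1) fun e => hql.1.2 (Fin.ext e.symm))
    · simp only [search, List.all_eq_true, List.mem_range] at hs
      have := hs x.val x.isLt
      rw [if_pos] at this
      · rw [hl', List.map_append, List.map_append, List.map_map]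
        rw [List.map_map] at this
        have e : l.map (Fin.val ∘ qf) = l.map ((fun y => prE y x.val - 1) ∘ Fin.val) :=
          List.map_congr_left fun y hy => by simp [(hqf y hy).2.1]
        rw [e]
        simpa using this
      · simp only [Bool.and_eq_true, decide_eq_true_eq, List.all_eq_true, List.mem_map,
          forall_exists_index, and_imp, forall_apply_eq_imp_iff₂]
        exact ⟨hlo x hxS hxl, fun y hy => by rw [(hqf y hy).2.1]; have := (hqf y hy).2.2; omega⟩

end CfsgLib.LargeFischer28
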