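import Cfsg.Agent.LargeFischer28.Elems

/-!
Squares of linear good maps filling up the flagged part of the Sylow subgroup, and the elements of
odd order used on the elementary subgroup of order 16.
-/

set_option autoImplicit false
set_option maxRecDepth 100000

namespace CfsgLib.LargeFischer28

open CfsgLib.LargeFischer85

/-- Two packed maps are mutually inverse. -/
def invB (c d : ℕ) : Bool :=
  (List.range 12).all fun j => appN c 12 (col d j) == 2 ^ j && appN d 12 (col c j) == 2 ^ j

theorem app_app_bas {c d : ℕ} (h : invB c d = true) (n : W) : app c (app d n) = n ∧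
    app d (app c n) = n := by
  simp only [invB, List.all_eq_true, List.mem_range, Bool.and_eq_true, beq_iff_eq] at h
  refine ⟨congrFun (isAdd_ext (isAdd_comp (isAdd_app c) (isAdd_app d)) isAdd_id fun j => ?_) n,
    congrFun (isAdd_ext (isAdd_comp (isAdd_app d) (isAdd_app c)) isAdd_id fun j => ?_) n⟩
  · apply Fin.ext
    show appN c 12 (app d (bas j)).val = _
    rw [app_bas, (h j.val j.isLt).1]
    rfl
  · apply Fin.ext
    show appN d 12 (app c (bas j)).val = _
    rw [app_bas, (h j.val j.isLt).2]
    rfl

/-- The test of a linear good map with given inverse. -/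
def glB (c d : ℕ) : Bool := invB c d && linB c && chkA c keepMasks 12 0 0

theorem exists_GL6 {c d : ℕ} (h : glB c d = true) : ∃ g ∈ GL6, ⇑g = app c := by
  simp only [glB, Bool.and_eq_true] at h
  obtain ⟨⟨hi, hl⟩, hm⟩ := h
  let g : Equiv.Perm W := ⟨app c, app d, fun n => (app_app_bas hi n).2, fun n => (app_app_bas hi n).1⟩
  exact ⟨g, ⟨isGood_of_app (fun _ => rfl) hm (by simp [hl]), fun n => isLinMap_of_linB hl n⟩, rfl⟩

/-- The square generators of the flagged part. -/
def qN (k : ℕ) : ℕ := qIdx.getD k 0

theorem c_split : ((List.range 6).all fun k =>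
    let x := splitData.getD k ((0, 0), (0, 0))
    glB x.1.1 x.1.2 && glB x.2.1 x.2.2 && decide (qN k < 512) &&
      ((List.range 12).all fun j => appN x.1.1 12 (appN x.1.1 12 (appN x.2.1 12 (col x.2.1 j))) ==
        col (elsC (qN k)) j)) = true := by
  decide +kernel

theorem exists_squares {k : ℕ} (hk : k < 6) : ∃ r ∈ GL6, ∃ s ∈ GL6,
    ∀ h : qN k < 512, elP ⟨qN k, h⟩ = r * r * (s * s) := by
  have := c_split
  simp only [List.all_eq_true, List.mem_range, Bool.and_eq_true, beq_iff_eq] at this
  obtain ⟨⟨⟨h1, h2⟩, -⟩, h3⟩ := this k hk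
  obtain ⟨r, hr, er⟩ := exists_GL6 h1
  obtain ⟨s, hs, es⟩ := exists_GL6 h2
  refine ⟨r, hr, s, hs, fun h => Equiv.ext fun n => ?_⟩
  simp only [Equiv.Perm.mul_apply, er, es, elP_apply]
  exact congrFun (isAdd_ext (isAdd_app _) (isAdd_comp (isAdd_app _) (isAdd_comp (isAdd_app _)
    (isAdd_comp (isAdd_app _) (isAdd_app _)))) fun j => Fin.ext (by
      rw [app_bas, ← h3 j.val j.isLt, ← app_bas]; rfl)) n

/-- The flagged elements are reached from the square generators. -/
def qchain : ℕ → ℕ → Bool
  | 0, i => i == 0
  | f + 1, i => i == 0 || (decide (getP qPkN 4 i < 6) && decide (getP qParN 12 i < 512) &&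
      mulN (qN (getP qPkN 4 i)) (getP qParN 12 i) == i && qchain f (getP qParN 12 i))

theorem c_flag : ((List.range 512).all fun i => (!flagN.testBit i || (linN.testBit i && qchain 12 i)) &&
    (!linN.testBit i || flagN.testBit i || flagN.testBit (mulN i out0))) = true := by
  decide +kernel

theorem elP_mem_of_qchain {M : Subgroup (Equiv.Perm W)} (hM : ∀ g ∈ GL6, g * g ∈ M) :
    ∀ f (i : Fin 512), qchain f i.val = true → elP i ∈ M
  | 0, i, h => by
    obtain rfl : i = 0 := Fin.ext (by simpa [qchain] using h)
    rw [elP_zero]; exact M.one_mem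
  | f + 1, i, h => by
    simp only [qchain, Bool.or_eq_true, Bool.and_eq_true, beq_iff_eq, decide_eq_true_eq] at h
    rcases h with h | ⟨⟨⟨hk, hp⟩, hmul⟩, hc⟩
    · obtain rfl : i = 0 := Fin.ext h
      rw [elP_zero]; exact M.one_mem
    · obtain ⟨r, hr, s, hs, he⟩ := exists_squares hk
      have hq : qN (getP qPkN 4 i.val) < 512 := by
        have := c_split
        simp only [List.all_eq_true, List.mem_range, Bool.and_eq_true, decide_eq_true_eq] at this
        exact (this _ hk).1.2
      have : i = mulF ⟨_, hq⟩ ⟨_, hp⟩ := Fin.ext hmul.symm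
      rw [this, elP_mul, he hq]
      exact M.mul_mem (M.mul_mem (hM r hr) (hM s hs)) (elP_mem_of_qchain hM f ⟨_, hp⟩ hc)

/-- Flagged elements lie in every subgroup containing the squares of linear good maps. -/
theorem flag_mem {M : Subgroup (Equiv.Perm W)} (hM : ∀ g ∈ GL6, g * g ∈ M) (i : Fin 512)
    (h : flagN.testBit i.val = true) : elP i ∈ M := by
  have := c_flag
  simp only [List.all_eq_true, List.mem_range, Bool.and_eq_true, Bool.or_eq_true,
    Bool.not_eq_true'] at this
  exact elP_mem_of_qchain hM 12 i (((this i.val i.isLt).1.resolve_left (by simp [h])).2)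

/-- The chosen linear element outside the flagged part. -/
def outF : Fin 512 := ⟨out0, by decide⟩

theorem nonflag_mem (i : Fin 512) (hl : linN.testBit i.val = true)
    (hf : flagN.testBit i.val = false) : flagN.testBit (mulF i outF).val = true := by
  have := c_flag
  simp only [List.all_eq_true, List.mem_range, Bool.and_eq_true, Bool.or_eq_true,
    Bool.not_eq_true'] at this
  exact ((this i.val i.isLt).2.resolve_left (by simp [hl, hf]))

theorem c_om : chk (fun n => if h : n < 4096 then
    decide (sing (om ⟨n, h⟩) ↔ sing ⟨n, h⟩) && decide (inOne 0 (om ⟨n, h⟩) ↔ inOne 0 ⟨n, h⟩)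
    else true) 12 0 = true := by
  decide +kernel

/-- The scalar as a permutation. -/
def omP : Equiv.Perm W :=
  ⟨om, fun n => om (om n), fun n => om_cube n, fun n => om_cube n⟩

theorem omP_mem : omP ∈ GL6 := by
  have h : ∀ n : W, (sing (om n) ↔ sing n) ∧ (inOne 0 (om n) ↔ inOne 0 n) := fun n => by
    have := chk_spec _ 12 0 c_om n.val (Nat.zero_le _) (by simpa using n.isLt)
    simp only [n.isLt, dif_pos, Bool.and_eq_true, decide_eq_true_eq] at this
    exact this
  exact ⟨⟨om_add, fun n => (h n).1, fun n => (h n).2, Or.inl fun _ => rfl⟩, fun _ => rfl⟩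

theorem omP_cube : omP ^ 3 = 1 := Equiv.ext fun n => by
  simp [pow_succ, omP, Equiv.Perm.mul_apply, om_cube]

end CfsgLib.LargeFischer28
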