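import Cfsg.Agent.LargeFischer28.Group
import Cfsg.Agent.Eq.Def_Transfer

/-!
The unique largest elementary abelian subgroup of a Sylow 2-subgroup of `C(z)` for the model.
-/

set_option autoImplicit false

namespace CfsgLib.LargeFischer28

open CfsgLib.LargeFischer85 Cfsg

variable {G : Type*} [Group G]

theorem exists_conj_into_PS {R P : Subgroup (Equiv.Perm W)} (hR : R ≤ GX)
    (hRc : Nat.card R = 19595520) {u : Equiv.Perm W} (huR : u ∈ R) (huL : u ∉ GL6)
    (hP : P ≤ R) (hP2 : IsPGroup 2 P) :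
    ∃ g ∈ GX, ∀ x ∈ P, g * x * g⁻¹ ∈ PS := by
  classical
  obtain ⟨-, -, hGX⟩ := group_facts hR hRc huR huL
  have hPG : P ≤ GX := hP.trans hR
  have h1 : IsPGroup 2 ↥(P.subgroupOf GX) :=
    hP2.of_equiv (Subgroup.subgroupOfEquivOfLe hPG).symm
  have h2c : Nat.card ↥(PS.subgroupOf GX) = 2 ^ 9 := by
    rw [Nat.card_congr (Subgroup.subgroupOfEquivOfLe PS_le).toEquiv, card_PS]; norm_num
  obtain ⟨S1, hS1⟩ := h1.exists_le_sylow
  obtain ⟨S2, hS2⟩ := (IsPGroup.of_card h2c).exists_le_sylow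
  have hS2eq : PS.subgroupOf GX = (S2 : Subgroup ↥GX) := by
    refine Subgroup.eq_of_le_of_card_ge hS2 ?_
    obtain ⟨k, hk⟩ := IsPGroup.iff_card.1 S2.isPGroup'
    have hdvd := (S2 : Subgroup ↥GX).card_subgroup_dvd_card
    rw [hGX, hk] at hdvd
    rw [hk, h2c]
    refine Nat.pow_le_pow_right (by norm_num) ?_
    by_contra hlt
    have := (Nat.pow_dvd_pow 2 (show 10 ≤ k by omega)).trans hdvd
    norm_num at this
  obtain ⟨g, hg⟩ := MulAction.exists_smul_eq (↥GX) S1 S2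
  refine ⟨g, g.2, fun x hx => ?_⟩
  have h3 : g * ⟨x, hPG hx⟩ * g⁻¹ ∈ (S2 : Subgroup ↥GX) := by
    rw [← hg, Sylow.coe_subgroup_smul]
    exact ⟨⟨x, hPG hx⟩, hS1 hx, by simp⟩
  rw [← hS2eq] at h3
  exact h3

section

variable {z : G} {Q : Subgroup (Subgroup.centralizer ({z} : Set G))} [Q.Normal] {pr : ↥Q → W}
  {act : (↥(Subgroup.centralizer ({z} : Set G)) ⧸ Q) →* Equiv.Perm W}

theorem Model.conj (hM : Model z Q pr act) {g : Equiv.Perm W} (hg : g ∈ GX) :
    Model z Q (fun a => g (pr a)) ((MulAut.conj g).toMonoidHom.comp act) := by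
  have hg0 : g 0 = 0 := hg.add.map_zero
  refine ⟨hM.ord, hM.mem, fun a b => by simp only [hM.pr_mul, hg.add _ _], fun a => ?_, fun v => ?_,
    fun a => ?_, hM.bound, ?_, fun h a b hb => ?_, fun k => ?_, hM.card, ?_⟩
  · rw [← hM.pr_zero]
    exact ⟨fun e => g.injective (e.trans hg0.symm), fun e => by rw [e, hg0]⟩
  · obtain ⟨a, ha⟩ := hM.pr_surj (g⁻¹ v)
    exact ⟨a, by simp [ha]⟩
  · exact (hg.sing_iff _).trans (hM.pr_sq a)
  · exact (MulAut.conj g).injective.comp hM.act_inj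
  · have := hM.act_pr h a b hb
    simp only [MonoidHom.comp_apply, MulEquiv.coe_toMonoidHom, MulAut.conj_apply,
      Equiv.Perm.mul_apply] at this ⊢
    rw [show g⁻¹ (g (pr a)) = pr a by simp, this]
  · exact GX.mul_mem (GX.mul_mem hg (hM.good k)) (GX.inv_mem hg)
  · obtain ⟨k, hk⟩ := hM.anti
    refine ⟨k, fun h => ?_⟩
    simp only [MonoidHom.comp_apply, MulEquiv.coe_toMonoidHom, MulAut.conj_apply] at h
    by_cases hgl : g ∈ GL6
    · exact hk ((GL6.mul_mem_cancel_left hgl).1 ((GL6.mul_mem_cancel_right (GL6.inv_mem hgl)).1 h))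
    · refine hgl (GL6.inv_mem_iff.1 ((GL6.mul_mem_cancel_left ?_).1 h))
      exact mul_mem_GL6 hg (hM.good k) hgl hk

variable [Finite G]

/-- The theorem in the language of the statement. -/
theorem sylow_result (hM : Model z Q pr act) (T : Sylow 2 ↥(Subgroup.centralizer ({z} : Set G))) :
    ∃ A : Subgroup ↥(T : Subgroup (Subgroup.centralizer ({z} : Set G))),
      maxElementaryAbelianSubgroups 2 ↥(T : Subgroup (Subgroup.centralizer ({z} : Set G))) = {A} ∧
      Nat.card A = 2 ^ 11 ∧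
      Nat.card ↥(A.map (T : Subgroup (Subgroup.centralizer ({z} : Set G))).subtype ⊓ Q) = 2 ^ 7 ∧
      Nat.card ↥((A.map (T : Subgroup (Subgroup.centralizer ({z} : Set G))).subtype).map
        (QuotientGroup.mk' Q)) = 16 := by
  classical
  obtain ⟨k, hk⟩ := hM.anti
  have hR : act.range ≤ GX := by rintro _ ⟨h, rfl⟩; exact hM.good _
  have hRc : Nat.card act.range = 19595520 := by
    rw [← Nat.card_congr (MonoidHom.ofInjective hM.act_inj).toEquiv, hM.card]
  set P := (T : Subgroup ↥(Subgroup.centralizer ({z} : Set G))).map (act.comp (QuotientGroup.mk' Q))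
  have hP : P ≤ act.range := by rintro _ ⟨t, -, rfl⟩; exact ⟨_, rfl⟩
  obtain ⟨g, hg, hgP⟩ := exists_conj_into_PS hR hRc ⟨k, rfl⟩ hk hP (T.isPGroup'.map _)
  obtain ⟨A, hAT, hA2, hAc, hAQ, hAmap, huniq⟩ :=
    main (hM.conj hg) T fun t ht => hgP _ ⟨t, ht, rfl⟩
  set T' := (T : Subgroup ↥(Subgroup.centralizer ({z} : Set G)))
  have hmapA : (A.subgroupOf T').map T'.subtype = A := Subgroup.map_subgroupOf_eq_of_le hAT
  have hcA : Nat.card ↥(A.subgroupOf T') = 2 ^ 11 := by
    rw [Nat.card_congr (Subgroup.subgroupOfEquivOfLe hAT).toEquiv, hAc]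
  have hel : IsElementaryAbelian 2 (A.subgroupOf T') := by
    refine ⟨⟨⟨fun a b => ?_⟩⟩, fun a ha => Subtype.ext (by rw [sq]; exact hA2 _ ha)⟩
    refine Subtype.ext (Subtype.ext ?_)
    have h1 := hA2 _ (A.mul_mem a.2 b.2)
    rw [mul_eq_one_iff_eq_inv, mul_inv_rev, inv_eq_of_mul_eq_one_right (hA2 _ a.2),
      inv_eq_of_mul_eq_one_right (hA2 _ b.2)] at h1
    exact h1
  have hbig : ∀ B : Subgroup ↥T', IsElementaryAbelian 2 B → 2 ^ 11 ≤ Nat.card B →
      B = A.subgroupOf T' := by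
    intro B hB hc
    have h := huniq (B.map T'.subtype) (Subgroup.map_subtype_le _)
      (by
        rintro _ ⟨b, hb, rfl⟩
        rw [← map_mul, ← sq, hB.2 b hb, map_one])
      (by rwa [Subgroup.card_map_of_injective T'.subtype_injective])
    rw [← h, Subgroup.subgroupOf, Subgroup.comap_map_eq_self_of_injective T'.subtype_injective]
  refine ⟨A.subgroupOf T', ?_, hcA, by rw [hmapA]; exact hAQ, by rw [hmapA]; exact hAmap⟩
  ext B
  simp only [Set.mem_singleton_iff]
  refine ⟨fun h => hbig B h.1 (hcA ▸ h.2 _ hel), ?_⟩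
  rintro rfl
  refine ⟨hel, fun B hB => ?_⟩
  by_contra hlt
  rw [hcA, not_le] at hlt
  exact absurd (congrArg (fun K : Subgroup ↥T' => Nat.card K) (hbig B hB hlt.le))
    (by simp only [hcA]; omega)

end

end CfsgLib.LargeFischer28
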